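/-
Checked exhaustive search for Steiner systems on an initial segment of the twenty-four points.
-/
import Cfsg.Agent.Lib.Golay.Elems

set_option autoImplicit false
set_option maxRecDepth 100000

namespace CfsgLib.StCert

open Cfsg CfsgLib.Golay
open scoped Pointwise

/-- The first `n` points. -/
def Pn (n : ℕ) : Finset GolayPt := Finset.univ.filter fun p => idx p < n

theorem mem_Pn {n : ℕ} {p : GolayPt} : p ∈ Pn n ↔ idx p < n := by simp [Pn]

/-- A Steiner system on the first `n` points. -/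
structure St (t k n : ℕ) (B : Set (Finset GolayPt)) : Prop where
  blocks : ∀ b ∈ B, b.card = k ∧ b ⊆ Pn n
  cover : ∀ s, s ⊆ Pn n → s.card = t → ∃! b, b ∈ B ∧ s ⊆ b

/-- A permutation fixing all points from `n` on. -/
def FixHi (n : ℕ) (g : Equiv.Perm GolayPt) : Prop := ∀ q, n ≤ idx q → g q = q

theorem FixHi.mul {n : ℕ} {g h : Equiv.Perm GolayPt} (hg : FixHi n g) (hh : FixHi n h) : FixHi n (g * h) := by
  intro q hq
  rw [Equiv.Perm.mul_apply, hh q hq, hg q hq]

theorem FixHi.inv {n : ℕ} {g : Equiv.Perm GolayPt} (hg : FixHi n g) : FixHi n g⁻¹ := by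
  intro q hq
  rw [Equiv.Perm.inv_eq_iff_eq]
  exact (hg q hq).symm

theorem FixHi.mem {n : ℕ} {g : Equiv.Perm GolayPt} (hg : FixHi n g) {q : GolayPt} (hq : q ∈ Pn n) : g q ∈ Pn n := by
  rw [mem_Pn] at hq ⊢
  by_contra h
  have h1 : n ≤ idx (g q) := by omega
  have h2 := hg _ h1
  have h3 : g q = q := g.injective h2
  rw [h3] at h
  exact h hq

theorem FixHi.smul_sub {n : ℕ} {g : Equiv.Perm GolayPt} (hg : FixHi n g) {s : Finset GolayPt} (hs : s ⊆ Pn n) :
    g • s ⊆ Pn n := by
  intro q hq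
  obtain ⟨r, hr, rfl⟩ := Finset.mem_smul_finset.mp hq
  exact hg.mem (hs hr)

theorem St.smul {t k n : ℕ} {B : Set (Finset GolayPt)} (hB : St t k n B) {g : Equiv.Perm GolayPt} (hg : FixHi n g) :
    St t k n (g • B) := by
  constructor
  · rintro b hb
    obtain ⟨b', hb', rfl⟩ := Set.mem_smul_set.mp hb
    refine ⟨?_, hg.smul_sub (hB.blocks b' hb').2⟩
    change (g • b').card = k
    rw [Finset.card_smul_finset]
    exact (hB.blocks b' hb').1
  · intro s hs hc
    have hs' : g⁻¹ • s ⊆ Pn n := hg.inv.smul_sub hs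
    obtain ⟨b, ⟨hb1, hb2⟩, hU⟩ := hB.cover (g⁻¹ • s) hs' (by rw [Finset.card_smul_finset]; exact hc)
    refine ⟨g • b, ⟨Set.smul_mem_smul_set hb1, ?_⟩, ?_⟩
    · have := Finset.smul_finset_subset_smul_finset_iff (a := g).mpr hb2
      rwa [smul_inv_smul] at this
    · rintro c ⟨hc1, hc2⟩
      obtain ⟨c', hc', rfl⟩ := Set.mem_smul_set.mp hc1
      have h3 : c' = b := hU c' ⟨hc', by
        have := Finset.smul_finset_subset_smul_finset_iff (a := g⁻¹).mpr hc2
        change g⁻¹ • s ⊆ g⁻¹ • (g • c') at this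
        rwa [inv_smul_smul] at this⟩
      rw [h3]

/-- Two blocks sharing `t` points agree. -/
theorem St.eq_of_inter {t k n : ℕ} {B : Set (Finset GolayPt)} (hB : St t k n B) {a b : Finset GolayPt}
    (ha : a ∈ B) (hb : b ∈ B) (h : t ≤ (a ∩ b).card) : a = b := by
  obtain ⟨s, hs, hc⟩ := Finset.exists_subset_card_eq h
  have hsP : s ⊆ Pn n := fun q hq => (hB.blocks a ha).2 (Finset.mem_inter.mp (hs hq)).1
  obtain ⟨_, _, hU⟩ := hB.cover s hsP hc
  rw [hU a ⟨ha, fun q hq => (Finset.mem_inter.mp (hs hq)).1⟩, hU b ⟨hb, fun q hq => (Finset.mem_inter.mp (hs hq)).2⟩]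

/-- The certificate trees. -/
inductive SC where
  | leaf (π : ℕ) : SC
  | dead : SC
  | pick (u : ℕ) (br : SC) : SC
  | expl (c : ℕ) (sub rest : SC) : SC
  | sym (c π c' : ℕ) (rest : SC) : SC

/-- List membership with the accelerated comparison. -/
def inL (m : ℕ) : List ℕ → Bool
  | [] => false
  | a :: l => Nat.beq m a || inL m l

theorem inL_iff {m : ℕ} {l : List ℕ} : inL m l = true ↔ m ∈ l := by
  induction l with
  | nil => simp [inL]
  | cons a l ih =>
    simp only [inL, Bool.or_eq_true, Nat.beq_eq, List.mem_cons, ih]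

/-- Deleting a number. -/
def eraseN (c : ℕ) : List ℕ → List ℕ
  | [] => []
  | a :: l => if Nat.beq a c then eraseN c l else a :: eraseN c l

theorem mem_of_mem_eraseN {c a : ℕ} {l : List ℕ} (h : a ∈ l) (hne : a ≠ c) : a ∈ eraseN c l := by
  induction l with
  | nil => simp at h
  | cons x l ih =>
    simp only [eraseN]
    rcases List.mem_cons.mp h with rfl | h
    · have : Nat.beq a c = false := by
        rw [← Bool.not_eq_true, Nat.beq_eq]
        exact hne
      rw [this]
      simp
    · split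
      · exact ih h
      · exact List.mem_cons_of_mem _ (ih h)

/-- The candidates through a set `u`. -/
def cands (t u : ℕ) (Cand L : List ℕ) : List ℕ :=
  Cand.filter fun c => Nat.beq (Nat.land c u) u && L.all fun l => Nat.blt (pop (Nat.land c l)) t

/-- A permutation code acting on the first `n` points. -/
def permOK (n π : ℕ) : Bool :=
  valid π && (List.range 24).all fun i => Nat.blt i n || Nat.beq (pa π i) i

theorem permOK_fix {n π : ℕ} (h : permOK n π = true) : valid π = true ∧ FixHi n (mk π) := by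
  simp only [permOK, Bool.and_eq_true, List.all_eq_true, List.mem_range, Bool.or_eq_true] at h
  obtain ⟨h1, h2⟩ := h
  refine ⟨h1, fun q hq => ?_⟩
  rcases h2 (idx q) (idx_lt q) with h3 | h3
  · have : idx q < n := by simpa [Nat.blt] using h3
    omega
  · apply idx_inj
    rw [idx_mk h1]
    exact Nat.eq_of_beq_eq_true h3

/-- The check at a finished branch. -/
def leafOK (n π : ℕ) (L B0 : List ℕ) : Bool :=
  permOK n π && L.all (fun l => inL (img π l) B0) && B0.all (fun m => inL (img (pinv π) m) L)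

/-- The run of a certificate. -/
def run (t n : ℕ) (S : Bool) (Cand B0 : List ℕ) : SC → Bool → List ℕ → List ℕ → List ℕ → Bool
  | .leaf π, true, L, _, _ => leafOK n π L B0
  | .pick u br, true, L, _, _ =>
    Nat.beq (pop u) t && Nat.blt u (2 ^ n) && L.all (fun l => !Nat.beq (Nat.land l u) u) &&
      run t n S Cand B0 br false L (cands t u Cand L) []
  | .dead, false, _, P, _ => P.isEmpty
  | .expl c sub rest, false, L, P, ex =>
    run t n S Cand B0 sub true (c :: L) [] [] && run t n S Cand B0 rest false L (eraseN c P) (c :: ex)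
  | .sym c π c' rest, false, L, P, ex =>
    S && permOK n π && inL c' ex && Nat.beq (img π c) c' &&
      L.all (fun l => inL (img π l) L && inL (img (pinv π) l) L) &&
      run t n S Cand B0 rest false L (eraseN c P) ex
  | _, _, _, _, _ => false

/-- The set of blocks from a list of masks. -/
def setOf (l : List ℕ) : Set (Finset GolayPt) := {b | ∃ m ∈ l, b = fs m}

theorem mem_setOf {l : List ℕ} {b : Finset GolayPt} : b ∈ setOf l ↔ ∃ m ∈ l, b = fs m := Iff.rfl

section
variable {t k n : ℕ} {L0 Cand B0 : List ℕ} {S : Bool}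

/-- Admissible systems. -/
def Adm (t k n : ℕ) (L0 Cand : List ℕ) (B : Set (Finset GolayPt)) : Prop :=
  St t k n B ∧ (∀ l ∈ L0, fs l ∈ B) ∧ ∀ b ∈ B, mask b ∈ L0 ∨ mask b ∈ Cand

/-- The conclusion. -/
def Concl (n : ℕ) (B0 : List ℕ) (B : Set (Finset GolayPt)) : Prop :=
  ∃ g : Equiv.Perm GolayPt, FixHi n g ∧ g • B = setOf B0

/-- What a node gives. -/
def GoodL (t k n : ℕ) (L0 Cand B0 : List ℕ) (L : List ℕ) : Prop :=
  ∀ B, Adm t k n L0 Cand B → (∀ l ∈ L, fs l ∈ B) → Concl n B0 B

theorem pop_land_lt {t k n : ℕ} {B : Set (Finset GolayPt)} (hB : St t k n B) {a l : ℕ}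
    (ha : fs a ∈ B) (hl : fs l ∈ B) (hne : fs a ≠ fs l) : pop (Nat.land a l) < t := by
  by_contra h
  have h1 : t ≤ (fs a ∩ fs l).card := by
    rw [← fs_land, card_fs]
    show t ≤ pop (Nat.land a l)
    omega
  exact hne (hB.eq_of_inter ha hl h1)

theorem fs_img_pinv {π m : ℕ} (hv : valid π = true) : fs (img (pinv π) m) = (mk π)⁻¹ • fs m := by
  rw [fs_img (valid_pinv hv), mk_pinv hv]

/-- Soundness of a finished branch. -/
theorem leaf_sound (htk : t ≤ k) (hcov : ∀ s, s ⊆ Pn n → s.card = t → ∃ m ∈ B0, s ⊆ fs m) {π : ℕ} {L : List ℕ}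
    (h : leafOK n π L B0 = true) : GoodL t k n L0 Cand B0 L := by
  simp only [leafOK, Bool.and_eq_true, List.all_eq_true, inL_iff] at h
  obtain ⟨⟨hp, h1⟩, h2⟩ := h
  obtain ⟨hv, hfix⟩ := permOK_fix hp
  intro B hB hL
  refine ⟨mk π, hfix, ?_⟩
  have hsub : ∀ b ∈ B, ∃ l ∈ L, b = fs l := by
    intro b hb
    have hc : t ≤ b.card := by
      rw [(hB.1.blocks b hb).1]
      exact htk
    obtain ⟨s, hs, hsc⟩ := Finset.exists_subset_card_eq hc
    have hsP : s ⊆ Pn n := fun q hq => (hB.1.blocks b hb).2 (hs hq)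
    obtain ⟨m, hm, hsm⟩ := hcov ((mk π) • s) (hfix.smul_sub hsP) (by rw [Finset.card_smul_finset]; exact hsc)
    have hl := h2 m hm
    refine ⟨_, hl, ?_⟩
    have h4 : fs (img (pinv π) m) ∈ B := hL _ hl
    rw [fs_img_pinv hv] at h4 ⊢
    obtain ⟨_, _, hU⟩ := hB.1.cover s hsP hsc
    rw [hU b ⟨hb, hs⟩, hU _ ⟨h4, ?_⟩]
    have := Finset.smul_finset_subset_smul_finset_iff (a := (mk π)⁻¹).mpr hsm
    rwa [inv_smul_smul] at this
  ext x
  constructor
  · intro hx
    obtain ⟨b, hb, rfl⟩ := Set.mem_smul_set.mp hx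
    obtain ⟨l, hl, rfl⟩ := hsub b hb
    refine ⟨img π l, h1 l hl, ?_⟩
    exact (fs_img hv l).symm
  · rintro ⟨m, hm, rfl⟩
    have hl := h2 m hm
    refine Set.mem_smul_set.mpr ⟨_, hL _ hl, ?_⟩
    rw [fs_img_pinv hv]
    exact smul_inv_smul _ _

theorem fs_sub_of_land {u c : ℕ} (h : Nat.land c u = u) : fs u ⊆ fs c := by
  intro q hq
  have : fs (Nat.land c u) = fs c ∩ fs u := fs_land c u
  rw [h] at this
  rw [this] at hq
  exact (Finset.mem_inter.mp hq).1

theorem land_of_fs_sub {u c : ℕ} (hu : u < 2 ^ 24) (hc : c < 2 ^ 24) (h : fs u ⊆ fs c) : Nat.land c u = u := by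
  refine eq_of_fs_eq (lt_of_le_of_lt Nat.and_le_left hc) hu ?_
  have : fs (Nat.land c u) = fs c ∩ fs u := fs_land c u
  rw [this]
  exact Finset.inter_eq_right.mpr h

theorem fs_sub_Pn {u n : ℕ} (hn : n ≤ 24) (h : u < 2 ^ n) : fs u ⊆ Pn n := by
  intro q hq
  rw [mem_Pn]
  have h1 := mem_fs.mp hq
  by_contra h2
  have h3 : n ≤ idx q := by omega
  have h4 : u < 2 ^ idx q := lt_of_lt_of_le h (Nat.pow_le_pow_right (by norm_num) h3)
  rw [Nat.testBit_lt_two_pow h4] at h1
  exact absurd h1 (by simp)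

/-- Soundness of a run. -/
theorem run_sound (hn : n ≤ 24) (htk : t ≤ k) (hcov : ∀ s, s ⊆ Pn n → s.card = t → ∃ m ∈ B0, s ⊆ fs m)
    (hS : S = true → ∀ g, FixHi n g → ∀ B, Adm t k n L0 Cand B → Adm t k n L0 Cand (g • B))
    (c : SC) :
    (∀ L P ex, run t n S Cand B0 c true L P ex = true → (∀ l ∈ L0, l ∈ L) → GoodL t k n L0 Cand B0 L) ∧
    (∀ L P ex, run t n S Cand B0 c false L P ex = true → (∀ l ∈ L0, l ∈ L) → (∀ e ∈ ex, GoodL t k n L0 Cand B0 (e :: L)) →
      ∀ B, Adm t k n L0 Cand B → (∀ l ∈ L, fs l ∈ B) → ∀ a ∈ P, fs a ∈ B → Concl n B0 B) := by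
  induction c with
  | leaf π =>
    refine ⟨fun L P ex h _ => leaf_sound htk hcov h, fun L P ex h => ?_⟩
    simp [run] at h
  | dead =>
    refine ⟨fun L P ex h _ => ?_, fun L P ex h _ _ B _ _ a ha => ?_⟩
    · simp [run] at h
    · simp only [run, List.isEmpty_iff] at h
      subst h
      simp at ha
  | pick u br ih =>
    refine ⟨fun L P ex h hL0 => ?_, fun L P ex h => ?_⟩
    · simp only [run, Bool.and_eq_true, Nat.beq_eq, List.all_eq_true, Bool.not_eq_true'] at h
      obtain ⟨⟨⟨hu, hult⟩, hunc⟩, hbr⟩ := h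
      intro B hB hL
      have hult' : u < 2 ^ n := by simpa [Nat.blt] using hult
      obtain ⟨b, ⟨hb1, hb2⟩, _⟩ : ∃! b, b ∈ B ∧ fs u ⊆ b :=
        hB.1.cover (fs u) (fs_sub_Pn hn hult') (by rw [card_fs]; exact hu)
      have hbe : fs (mask b) = b := fs_mask b
      have hulow : u < 2 ^ 24 := lt_of_lt_of_le hult' (Nat.pow_le_pow_right (by norm_num) hn)
      have hnot : ∀ l ∈ L, fs l ≠ b := by
        intro l hl he
        have h1 := hunc l hl
        have h2 : Nat.land l u = u := by
          have h5 : fs u ⊆ fs l := by rw [he]; exact hb2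
          -- compare through the masks of the sets
          have h6 : fs (Nat.land l u) = fs u := by
            have : fs (Nat.land l u) = fs l ∩ fs u := fs_land l u
            rw [this]
            exact Finset.inter_eq_right.mpr h5
          have h7 : Nat.land l u < 2 ^ 24 := lt_of_le_of_lt Nat.and_le_right hulow
          exact eq_of_fs_eq h7 hulow h6
        rw [h2] at h1
        simp at h1
      have hmem : mask b ∈ Cand := by
        rcases hB.2.2 b hb1 with h1 | h1
        · exact absurd hbe (hnot _ (hL0 _ h1))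
        · exact h1
      have hcand : mask b ∈ cands t u Cand L := by
        refine List.mem_filter.mpr ⟨hmem, ?_⟩
        simp only [Bool.and_eq_true, Nat.beq_eq, List.all_eq_true]
        refine ⟨land_of_fs_sub hulow (mask_lt b) (by rw [hbe]; exact hb2), fun l hl => ?_⟩
        have := pop_land_lt hB.1 (a := mask b) (l := l) (by rw [hbe]; exact hb1) (hL l hl)
          (by rw [hbe]; exact (hnot l hl).symm)
        simpa [Nat.blt] using this
      exact ih.2 L _ [] hbr hL0 (by simp) B hB hL _ hcand (by rw [hbe]; exact hb1)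
    · simp [run] at h
  | expl c sub rest ih1 ih2 =>
    refine ⟨fun L P ex h _ => ?_, fun L P ex h hL0 hex B hB hL a ha hab => ?_⟩
    · simp [run] at h
    · simp only [run, Bool.and_eq_true] at h
      obtain ⟨h1, h2⟩ := h
      have hG : GoodL t k n L0 Cand B0 (c :: L) :=
        ih1.1 _ _ _ h1 (fun l hl => List.mem_cons_of_mem _ (hL0 l hl))
      by_cases hac : a = c
      · subst hac
        refine hG B hB (fun l hl => ?_)
        rcases List.mem_cons.mp hl with rfl | hl
        · exact hab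
        · exact hL l hl
      · refine ih2.2 L _ _ h2 hL0 (fun e he => ?_) B hB hL a (mem_of_mem_eraseN ha hac) hab
        rcases List.mem_cons.mp he with rfl | he
        · exact hG
        · exact hex e he
  | sym c π c' rest ih =>
    refine ⟨fun L P ex h _ => ?_, fun L P ex h hL0 hex B hB hL a ha hab => ?_⟩
    · simp [run] at h
    · simp only [run, Bool.and_eq_true, List.all_eq_true, inL_iff] at h
      obtain ⟨⟨⟨⟨⟨h1, h2⟩, h3⟩, h4⟩, h5⟩, h6⟩ := h
      by_cases hac : a = c
      · subst hac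
        obtain ⟨hv, hfix⟩ := permOK_fix h2
        have hAdm := hS h1 _ hfix B hB
        have hc' : fs c' ∈ (mk π) • B := by
          rw [← Nat.eq_of_beq_eq_true h4, fs_img hv]
          exact Set.smul_mem_smul_set hab
        have hLB : ∀ l ∈ c' :: L, fs l ∈ (mk π) • B := by
          intro l hl
          rcases List.mem_cons.mp hl with rfl | hl
          · exact hc'
          · refine Set.mem_smul_set.mpr ⟨_, hL _ (h5 l hl).2, ?_⟩
            rw [fs_img_pinv hv]
            exact smul_inv_smul _ _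
        obtain ⟨g, hg, he⟩ := hex c' h3 _ hAdm hLB
        refine ⟨g * mk π, hg.mul hfix, ?_⟩
        rw [mul_smul]
        exact he
      · exact ih.2 L _ _ h6 hL0 hex B hB hL a (mem_of_mem_eraseN ha hac) hab

end

end CfsgLib.StCert
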