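/-
Steps of the chain: the base of a search, extension by one point, and lists giving Steiner systems.
-/
import Cfsg.Agent.Lib.StCert.Basic
import Cfsg.Agent.Lib.Golay.Subs

set_option autoImplicit false
set_option maxRecDepth 100000

namespace CfsgLib.StCert

open Cfsg CfsgLib.Golay
open scoped Pointwise

/-- From a run to the conclusion. -/
theorem cert_main {t k n : ℕ} {L0 Cand B0 : List ℕ} {S : Bool} (hn : n ≤ 24) (htk : t ≤ k)
    (hcov : ∀ s, s ⊆ Pn n → s.card = t → ∃ m ∈ B0, s ⊆ fs m)
    (hS : S = true → ∀ g, FixHi n g → ∀ B, Adm t k n L0 Cand B → Adm t k n L0 Cand (g • B))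
    {cert : SC} (hrun : run t n S Cand B0 cert true L0 [] [] = true) :
    ∀ B, Adm t k n L0 Cand B → Concl n B0 B := fun B hB =>
  (run_sound hn htk hcov hS cert).1 L0 [] [] hrun (fun _ h => h) B hB hB.2.1

theorem mask_lt_of_sub {n : ℕ} {b : Finset GolayPt} (h : b ⊆ Pn n) : mask b < 2 ^ n := by
  rw [mask_eq_sum]
  apply sum_two_pow_lt
  intro i hi
  obtain ⟨q, hq, rfl⟩ := Finset.mem_image.mp hi
  exact mem_Pn.mp (h hq)

theorem bitCount_eq_pop {n m : ℕ} (hn : n ≤ 24) (hm : m < 2 ^ n) : bitCount n m = pop m := by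
  rw [pop_eq]
  unfold bitCount
  congr 1
  ext i
  simp only [Finset.mem_filter, Finset.mem_range]
  constructor
  · rintro ⟨h1, h2⟩
    exact ⟨by omega, h2⟩
  · rintro ⟨h1, h2⟩
    refine ⟨?_, h2⟩
    by_contra h3
    have h4 : m < 2 ^ i := lt_of_lt_of_le hm (Nat.pow_le_pow_right (by norm_num) (by omega))
    rw [Nat.testBit_lt_two_pow h4] at h2
    exact absurd h2 (by simp)

theorem mask_mem_subs_of {n k : ℕ} (hn : n ≤ 24) {b : Finset GolayPt} (h : b ⊆ Pn n) (hc : b.card = k) :
    mask b ∈ subs n k := by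
  rw [mem_subs]
  have h1 := mask_lt_of_sub h
  refine ⟨h1, ?_⟩
  rw [bitCount_eq_pop hn h1, ← card_fs, fs_mask, hc]

/-- The base of a search: all blocks are candidates. -/
theorem base_step {t k n : ℕ} {B0 : List ℕ} (hn : n ≤ 24) (htk : t ≤ k)
    (hcov : ∀ s, s ⊆ Pn n → s.card = t → ∃ m ∈ B0, s ⊆ fs m) {cert : SC}
    (hrun : run t n true (subs n k) B0 cert true [] [] [] = true) :
    ∀ B, St t k n B → Concl n B0 B := by
  intro B hB
  refine cert_main hn htk hcov ?_ hrun B ⟨hB, by simp, fun b hb => Or.inr ?_⟩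
  · intro _ g hg B' hB'
    refine ⟨hB'.1.smul hg, by simp, fun b hb => Or.inr ?_⟩
    have := (hB'.1.smul hg).blocks b hb
    exact mask_mem_subs_of hn this.2 this.1
  · exact mask_mem_subs_of hn (hB.blocks b hb).2 (hB.blocks b hb).1

/-- The blocks through a point, with the point removed. -/
def Der (n : ℕ) (B : Set (Finset GolayPt)) : Set (Finset GolayPt) :=
  {b | b ⊆ Pn n ∧ insert (pt n) b ∈ B}

theorem idx_pt_not_mem {n : ℕ} (hn : n < 24) {b : Finset GolayPt} (h : b ⊆ Pn n) : pt n ∉ b := by
  intro hq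
  have := mem_Pn.mp (h hq)
  rw [idx_pt hn] at this
  omega

theorem Pn_succ {n : ℕ} (hn : n < 24) : Pn (n + 1) = insert (pt n) (Pn n) := by
  ext q
  simp only [mem_Pn, Finset.mem_insert]
  constructor
  · intro h
    by_cases h2 : idx q = n
    · left
      rw [← h2, pt_idx]
    · right
      omega
  · rintro (rfl | h)
    · rw [idx_pt hn]
      omega
    · omega

theorem St.der {t k n : ℕ} {B : Set (Finset GolayPt)} (hn : n < 24) (hB : St (t + 1) (k + 1) (n + 1) B) :
    St t k n (Der n B) := by
  constructor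
  · rintro b ⟨hb1, hb2⟩
    refine ⟨?_, hb1⟩
    have := (hB.blocks _ hb2).1
    rw [Finset.card_insert_of_notMem (idx_pt_not_mem hn hb1)] at this
    omega
  · intro s hs hc
    have hp := idx_pt_not_mem hn hs
    have hs' : insert (pt n) s ⊆ Pn (n + 1) := by
      rw [Pn_succ hn]
      exact Finset.insert_subset_insert _ hs
    obtain ⟨b, ⟨hb1, hb2⟩, hU⟩ := hB.cover (insert (pt n) s) hs' (by
      rw [Finset.card_insert_of_notMem hp, hc])
    have hpb : pt n ∈ b := hb2 (Finset.mem_insert_self _ _)
    have hbP := (hB.blocks b hb1).2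
    have he : insert (pt n) (b.erase (pt n)) = b := Finset.insert_erase hpb
    have hsub : b.erase (pt n) ⊆ Pn n := by
      intro q hq
      obtain ⟨h1, h2⟩ := Finset.mem_erase.mp hq
      have := hbP h2
      rw [Pn_succ hn] at this
      rcases Finset.mem_insert.mp this with h3 | h3
      · exact absurd h3 h1
      · exact h3
    refine ⟨b.erase (pt n), ⟨⟨hsub, by rw [he]; exact hb1⟩, ?_⟩, ?_⟩
    · intro q hq
      refine Finset.mem_erase.mpr ⟨?_, hb2 (Finset.mem_insert_of_mem hq)⟩
      rintro rfl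
      exact hp hq
    · rintro c ⟨⟨hc1, hc2⟩, hc3⟩
      have h4 : insert (pt n) c = b := hU _ ⟨hc2, Finset.insert_subset_insert _ hc3⟩
      rw [← h4, Finset.erase_insert (idx_pt_not_mem hn hc1)]

/-- Adding the next point to a mask. -/
def addBit (n m : ℕ) : ℕ := Nat.lor m (Nat.pow 2 n)

theorem fs_two_pow {n : ℕ} (hn : n < 24) : fs (2 ^ n) = {pt n} := by
  ext q
  simp only [mem_fs, Finset.mem_singleton, Nat.testBit_two_pow]
  constructor
  · intro h
    have h2 : n = idx q := by simpa using h
    rw [h2, pt_idx]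
  · rintro rfl
    rw [idx_pt hn]
    simp

theorem fs_addBit {n : ℕ} (hn : n < 24) (m : ℕ) : fs (addBit n m) = insert (pt n) (fs m) := by
  have h : addBit n m = m ||| 2 ^ n := rfl
  rw [h, fs_lor, fs_two_pow hn]
  ext q
  simp [or_comm]

/-- The candidates extending a system. -/
def extCand (t n k : ℕ) (base : List ℕ) : List ℕ :=
  (subs n (k + 1)).filter fun m => base.all fun l => Nat.ble (pop (Nat.land m l)) t

/-- Extension by one point. -/
theorem ext_step {t k n : ℕ} {base top Cand : List ℕ} (hn : n < 24) (htk : t ≤ k)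
    (hT : ∀ B, St t k n B → Concl n base B) (hbase : ∀ m ∈ base, m < 2 ^ n)
    (hcand : extCand t n k base = Cand)
    (hcov : ∀ s, s ⊆ Pn (n + 1) → s.card = t + 1 → ∃ m ∈ top, s ⊆ fs m) {cert : SC}
    (hrun : run (t + 1) (n + 1) false Cand top cert true (base.map (addBit n)) [] [] = true) :
    ∀ B, St (t + 1) (k + 1) (n + 1) B → Concl (n + 1) top B := by
  intro B hB
  obtain ⟨g, hg, he⟩ := hT _ (hB.der hn)
  have hg' : FixHi (n + 1) g := fun q hq => hg q (by omega)
  have hgp : g (pt n) = pt n := hg _ (by rw [idx_pt hn])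
  have hginv : g⁻¹ (pt n) = pt n := hg.inv _ (by rw [idx_pt hn])
  have hB1 : St (t + 1) (k + 1) (n + 1) (g • B) := hB.smul hg'
  have hsmul_ins : ∀ (h : Equiv.Perm GolayPt), h (pt n) = pt n → ∀ d : Finset GolayPt,
      h • insert (pt n) d = insert (pt n) (h • d) := by
    intro h hh d
    rw [Finset.smul_finset_insert]
    congr 1
  have hL : ∀ m ∈ base, fs (addBit n m) ∈ g • B := by
    intro m hm
    have h1 : fs m ∈ g • Der n B := by
      rw [he]
      exact ⟨m, hm, rfl⟩
    obtain ⟨d, hd, hde⟩ := Set.mem_smul_set.mp h1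
    rw [fs_addBit hn, ← hde]
    have h2 : g • insert (pt n) d = insert (pt n) (g • d) := hsmul_ins g hgp d
    change insert (pt n) (g • d) ∈ g • B
    rw [← h2]
    exact Set.smul_mem_smul_set hd.2
  have hAdm : Adm (t + 1) (k + 1) (n + 1) (base.map (addBit n)) Cand (g • B) := by
    refine ⟨hB1, ?_, ?_⟩
    · intro l hl
      obtain ⟨m, hm, rfl⟩ := List.mem_map.mp hl
      exact hL m hm
    · intro b hb
      obtain ⟨hbc, hbP⟩ := hB1.blocks b hb
      by_cases hpb : pt n ∈ b
      · left
        have he2 : insert (pt n) (b.erase (pt n)) = b := Finset.insert_erase hpb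
        have hsub : b.erase (pt n) ⊆ Pn n := by
          intro q hq
          obtain ⟨h1, h2⟩ := Finset.mem_erase.mp hq
          have := hbP h2
          rw [Pn_succ hn] at this
          rcases Finset.mem_insert.mp this with h3 | h3
          · exact absurd h3 h1
          · exact h3
        have h1 : b.erase (pt n) ∈ g • Der n B := by
          refine Set.mem_smul_set.mpr ⟨g⁻¹ • b.erase (pt n), ⟨hg.inv.smul_sub hsub, ?_⟩, smul_inv_smul _ _⟩
          have h2 : insert (pt n) (g⁻¹ • b.erase (pt n)) = g⁻¹ • b := by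
            rw [← hsmul_ins g⁻¹ hginv, he2]
          rw [h2]
          obtain ⟨b', hb', rfl⟩ := Set.mem_smul_set.mp hb
          change g⁻¹ • (g • b') ∈ B
          rwa [inv_smul_smul]
        rw [he] at h1
        obtain ⟨m, hm, hme⟩ := h1
        refine List.mem_map.mpr ⟨m, hm, ?_⟩
        have h3 : b = fs (addBit n m) := by
          rw [fs_addBit hn, ← hme, he2]
        rw [h3, mask_fs]
        have h4 := hbase m hm
        have h5 : addBit n m = m ||| 2 ^ n := rfl
        rw [h5]
        exact Nat.or_lt_two_pow (lt_of_lt_of_le h4 (Nat.pow_le_pow_right (by norm_num) (by omega)))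
          (Nat.pow_lt_pow_right (by norm_num) hn)
      · right
        have hsub : b ⊆ Pn n := by
          intro q hq
          have := hbP hq
          rw [Pn_succ hn] at this
          rcases Finset.mem_insert.mp this with h3 | h3
          · exact absurd (h3 ▸ hq) hpb
          · exact h3
        rw [← hcand]
        refine List.mem_filter.mpr ⟨mask_mem_subs_of (by omega) hsub hbc, ?_⟩
        simp only [List.all_eq_true, Nat.ble_eq]
        intro l hl
        have h1 := hL l hl
        have hne : b ≠ fs (addBit n l) := by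
          intro h2
          apply hpb
          rw [h2, fs_addBit hn]
          exact Finset.mem_insert_self _ _
        have h2 : ¬ (t + 1 ≤ (b ∩ fs (addBit n l)).card) := fun h3 => hne (hB1.eq_of_inter hb h1 h3)
        have h3 : b ∩ fs (addBit n l) = fs (mask b &&& l) := by
          rw [fs_land, fs_mask, fs_addBit hn]
          ext q
          simp only [Finset.mem_inter, Finset.mem_insert]
          constructor
          · rintro ⟨h4, h5 | h5⟩
            · exact absurd (h5 ▸ h4) hpb
            · exact ⟨h4, h5⟩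
          · rintro ⟨h4, h5⟩
            exact ⟨h4, Or.inr h5⟩
        rw [h3, card_fs] at h2
        show pop (mask b &&& l) ≤ t
        omega
  have hS : false = true → ∀ g', FixHi (n + 1) g' → ∀ B', Adm (t + 1) (k + 1) (n + 1) (base.map (addBit n)) Cand B' →
      Adm (t + 1) (k + 1) (n + 1) (base.map (addBit n)) Cand (g' • B') := by
    intro h
    exact absurd h (by simp)
  obtain ⟨h, hh, he2⟩ := cert_main (by omega) (by omega) hcov hS hrun _ hAdm
  refine ⟨h * g, hh.mul hg', ?_⟩
  rw [mul_smul]
  exact he2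

/-- A list of masks giving a Steiner system. -/
def stChk (t k n : ℕ) (l : List ℕ) : Bool :=
  l.all (fun m => Nat.beq (pop m) k && Nat.blt m (2 ^ n)) &&
    (subs n t).all (fun u => l.any fun m => Nat.beq (Nat.land m u) u) &&
    l.all (fun a => l.all fun b => Nat.beq a b || Nat.blt (pop (Nat.land a b)) t)

theorem St_of_list {t k n : ℕ} {l : List ℕ} (hn : n ≤ 24) (h : stChk t k n l = true) : St t k n (setOf l) := by
  simp only [stChk, Bool.and_eq_true, List.all_eq_true, List.any_eq_true, Nat.beq_eq, Bool.or_eq_true] at h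
  obtain ⟨⟨h1, h2⟩, h3⟩ := h
  have hlt : ∀ m ∈ l, m < 2 ^ n := fun m hm => by simpa [Nat.blt] using (h1 m hm).2
  have hlt24 : ∀ m ∈ l, m < 2 ^ 24 := fun m hm =>
    lt_of_lt_of_le (hlt m hm) (Nat.pow_le_pow_right (by norm_num) hn)
  constructor
  · rintro b ⟨m, hm, rfl⟩
    exact ⟨by rw [card_fs]; exact (h1 m hm).1, fs_sub_Pn hn (hlt m hm)⟩
  · intro s hs hc
    obtain ⟨m, hm, hme⟩ := h2 _ (mask_mem_subs_of hn hs hc)
    have hsm : s ⊆ fs m := by
      have := fs_sub_of_land hme
      rwa [fs_mask] at this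
    refine ⟨fs m, ⟨⟨m, hm, rfl⟩, hsm⟩, ?_⟩
    rintro b ⟨⟨m', hm', rfl⟩, hsb⟩
    rcases h3 m' hm' m hm with h4 | h4
    · rw [h4]
    · exfalso
      have h5 : pop (Nat.land m' m) < t := by simpa [Nat.blt] using h4
      have h6 : s ⊆ fs m' ∩ fs m := Finset.subset_inter hsb hsm
      have h7 := Finset.card_le_card h6
      rw [hc, ← fs_land, card_fs] at h7
      have h8 : pop (m' &&& m) = pop (Nat.land m' m) := rfl
      omega

theorem St.cov {t k n : ℕ} {l : List ℕ} (h : St t k n (setOf l)) :
    ∀ s, s ⊆ Pn n → s.card = t → ∃ m ∈ l, s ⊆ fs m := by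
  intro s hs hc
  obtain ⟨b, ⟨⟨m, hm, rfl⟩, hsb⟩, _⟩ := h.cover s hs hc
  exact ⟨m, hm, hsb⟩

/-- Derived lists. -/
def derChk (n : ℕ) (top base : List ℕ) : Bool :=
  base.all (fun m => Nat.blt m (2 ^ n) && inL (addBit n m) top) &&
    top.all (fun m => !m.testBit n || inL (m ^^^ (2 ^ n)) base)

theorem der_setOf {n : ℕ} {top base : List ℕ} (hn : n < 24) (htop : ∀ m ∈ top, m < 2 ^ (n + 1))
    (h : derChk n top base = true) : Der n (setOf top) = setOf base := by
  simp only [derChk, Bool.and_eq_true, List.all_eq_true, inL_iff, Bool.or_eq_true, Bool.not_eq_true'] at h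
  obtain ⟨h1, h2⟩ := h
  ext b
  constructor
  · rintro ⟨hb1, m, hm, hme⟩
    have h3 : m.testBit n = true := by
      have : pt n ∈ fs m := by
        rw [← hme]
        exact Finset.mem_insert_self _ _
      rw [mem_fs_pt hn] at this
      exact this
    rcases h2 m hm with h4 | h4
    · rw [h3] at h4
      simp at h4
    · refine ⟨_, h4, ?_⟩
      rw [fs_xor, fs_two_pow hn, ← hme]
      ext q
      simp only [Finset.mem_symmDiff, Finset.mem_insert, Finset.mem_singleton]
      have hp := idx_pt_not_mem hn hb1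
      constructor
      · intro hq
        refine Or.inl ⟨Or.inr hq, ?_⟩
        rintro rfl
        exact hp hq
      · rintro (⟨h5 | h5, h6⟩ | ⟨h5, h6⟩)
        · exact absurd h5 h6
        · exact h5
        · exact absurd (Or.inl h5) h6
  · rintro ⟨m, hm, rfl⟩
    obtain ⟨h3, h4⟩ := h1 m hm
    have h5 : m < 2 ^ n := by simpa [Nat.blt] using h3
    refine ⟨fs_sub_Pn (by omega) h5, _, h4, ?_⟩
    rw [fs_addBit hn]

end CfsgLib.StCert
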