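/-
A faster checked search: at each choice the candidates are computed from the blocks already found.
-/
import Cfsg.Agent.Lib.StCert.Ext

set_option autoImplicit false
set_option maxRecDepth 100000

namespace CfsgLib.StCert

open Cfsg CfsgLib.Golay
open scoped Pointwise

/-- The union of the blocks meeting `u` in one point fewer than `t`. -/
def exclM (t u : ℕ) : List ℕ → ℕ
  | [] => 0
  | l :: L => if Nat.beq (Nat.succ (pop (Nat.land l u))) t then Nat.lor l (exclM t u L) else exclM t u L

theorem testBit_exclM {t u i : ℕ} {L : List ℕ} (h : (exclM t u L).testBit i = true) :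
    ∃ l ∈ L, pop (Nat.land l u) + 1 = t ∧ l.testBit i = true := by
  induction L with
  | nil => simp [exclM] at h
  | cons a L ih =>
    simp only [exclM] at h
    split at h
    · rename_i h1
      have h2 : a.lor (exclM t u L) = a ||| exclM t u L := rfl
      rw [h2, Nat.testBit_or, Bool.or_eq_true] at h
      rcases h with h | h
      · exact ⟨a, List.mem_cons_self, Nat.eq_of_beq_eq_true h1, h⟩
      · obtain ⟨l, hl, h3⟩ := ih h
        exact ⟨l, List.mem_cons_of_mem _ hl, h3⟩
    · obtain ⟨l, hl, h3⟩ := ih h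
      exact ⟨l, List.mem_cons_of_mem _ hl, h3⟩

/-- The positions free of the mask. -/
def freeL (n e : ℕ) : List ℕ := (List.range n).filter fun i => !Nat.testBit e i

/-- The masks on `r` of the positions of a list. -/
def chooseL : List ℕ → ℕ → List ℕ
  | _, 0 => [0]
  | [], _ + 1 => []
  | a :: l, r + 1 => chooseL l (r + 1) ++ (chooseL l r).map (fun m => Nat.lor m (Nat.shiftLeft 1 a))

theorem mem_chooseL (l : List ℕ) (r : ℕ) (s : Finset GolayPt) (hs : s.card = r) (hl : ∀ q ∈ s, idx q ∈ l) :
    mask s ∈ chooseL l r := by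
  induction l generalizing r s with
  | nil =>
    cases r with
    | zero =>
      rw [Finset.card_eq_zero.mp hs]
      simp [chooseL, mask]
    | succ r =>
      exfalso
      obtain ⟨q, hq⟩ := Finset.card_pos.mp (by omega : 0 < s.card)
      simpa using hl q hq
  | cons a l ih =>
    cases r with
    | zero =>
      rw [Finset.card_eq_zero.mp hs]
      simp [chooseL, mask]
    | succ r =>
      simp only [chooseL, List.mem_append, List.mem_map]
      by_cases ha : ∃ q ∈ s, idx q = a
      · obtain ⟨q, hq, rfl⟩ := ha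
        right
        refine ⟨mask (s.erase q), ih r _ (by rw [Finset.card_erase_of_mem hq, hs]; rfl) ?_, ?_⟩
        · intro q' hq'
          obtain ⟨h1, h2⟩ := Finset.mem_erase.mp hq'
          rcases List.mem_cons.mp (hl q' h2) with h3 | h3
          · exact absurd (idx_inj h3) h1
          · exact h3
        · apply eq_of_fs_eq
          · have h5 : (mask (s.erase q)).lor (Nat.shiftLeft 1 (idx q)) = mask (s.erase q) ||| 2 ^ idx q := by
              have : Nat.shiftLeft 1 (idx q) = 2 ^ idx q := by
                rw [show Nat.shiftLeft 1 (idx q) = 1 <<< idx q from rfl, Nat.one_shiftLeft]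
              rw [this]
              rfl
            rw [h5]
            exact Nat.or_lt_two_pow (mask_lt _) (Nat.pow_lt_pow_right (by norm_num) (idx_lt q))
          · exact mask_lt _
          · have h5 : (mask (s.erase q)).lor (Nat.shiftLeft 1 (idx q)) = mask (s.erase q) ||| 2 ^ idx q := by
              have : Nat.shiftLeft 1 (idx q) = 2 ^ idx q := by
                rw [show Nat.shiftLeft 1 (idx q) = 1 <<< idx q from rfl, Nat.one_shiftLeft]
              rw [this]
              rfl
            rw [h5, fs_lor, fs_mask, fs_mask, fs_two_pow (idx_lt q), pt_idx]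
            ext x
            simp only [Finset.mem_union, Finset.mem_erase, Finset.mem_singleton]
            constructor
            · rintro (⟨_, h⟩ | rfl)
              · exact h
              · exact hq
            · intro h
              by_cases hx : x = q
              · exact Or.inr hx
              · exact Or.inl ⟨hx, h⟩
      · left
        refine ih (r + 1) s hs (fun q hq => ?_)
        rcases List.mem_cons.mp (hl q hq) with h3 | h3
        · exact absurd ⟨q, hq, h3⟩ ha
        · exact h3

/-- The candidates through `u`. -/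
def cands2 (t k n u : ℕ) (L : List ℕ) : List ℕ :=
  ((chooseL (freeL n (Nat.lor u (exclM t u L))) (k - t)).map fun m => Nat.lor m u).filter fun c =>
    L.all fun l => Nat.blt (pop (Nat.land c l)) t

/-- The run of a certificate. -/
def run2 (t k n : ℕ) (B0 : List ℕ) : SC → Bool → List ℕ → List ℕ → List ℕ → Bool
  | .leaf π, true, L, _, _ => leafOK n π L B0
  | .pick u br, true, L, _, _ =>
    Nat.beq (pop u) t && Nat.blt u (2 ^ n) && L.all (fun l => !Nat.beq (Nat.land l u) u) &&
      run2 t k n B0 br false L (cands2 t k n u L) []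
  | .dead, false, _, P, _ => P.isEmpty
  | .expl c sub rest, false, L, P, ex =>
    run2 t k n B0 sub true (c :: L) [] [] && run2 t k n B0 rest false L (eraseN c P) (c :: ex)
  | .sym c π c' rest, false, L, P, ex =>
    permOK n π && inL c' ex && Nat.beq (img π c) c' &&
      L.all (fun l => inL (img π l) L && inL (img (pinv π) l) L) &&
      run2 t k n B0 rest false L (eraseN c P) ex
  | _, _, _, _, _ => false

section
variable {t k n : ℕ} {B0 : List ℕ}

/-- What a node gives. -/
def Good2 (t k n : ℕ) (B0 : List ℕ) (L : List ℕ) : Prop :=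
  ∀ B, St t k n B → (∀ l ∈ L, fs l ∈ B) → Concl n B0 B

theorem leaf_sound2 (htk : t ≤ k) (hcov : ∀ s, s ⊆ Pn n → s.card = t → ∃ m ∈ B0, s ⊆ fs m) {π : ℕ} {L : List ℕ}
    (h : leafOK n π L B0 = true) : Good2 t k n B0 L := by
  simp only [leafOK, Bool.and_eq_true, List.all_eq_true, inL_iff] at h
  obtain ⟨⟨hp, h1⟩, h2⟩ := h
  obtain ⟨hv, hfix⟩ := permOK_fix hp
  intro B hB hL
  refine ⟨mk π, hfix, ?_⟩
  have hsub : ∀ b ∈ B, ∃ l ∈ L, b = fs l := by
    intro b hb
    have hc : t ≤ b.card := by
      rw [(hB.blocks b hb).1]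
      exact htk
    obtain ⟨s, hs, hsc⟩ := Finset.exists_subset_card_eq hc
    have hsP : s ⊆ Pn n := fun q hq => (hB.blocks b hb).2 (hs hq)
    obtain ⟨m, hm, hsm⟩ := hcov ((mk π) • s) (hfix.smul_sub hsP) (by rw [Finset.card_smul_finset]; exact hsc)
    have hl := h2 m hm
    refine ⟨_, hl, ?_⟩
    have h4 : fs (img (pinv π) m) ∈ B := hL _ hl
    rw [fs_img_pinv hv] at h4 ⊢
    obtain ⟨_, _, hU⟩ := hB.cover s hsP hsc
    rw [hU b ⟨hb, hs⟩, hU _ ⟨h4, ?_⟩]
    have := Finset.smul_finset_subset_smul_finset_iff (a := (mk π)⁻¹).mpr hsm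
    rwa [inv_smul_smul] at this
  ext x
  constructor
  · intro hx
    obtain ⟨b, hb, rfl⟩ := Set.mem_smul_set.mp hx
    obtain ⟨l, hl, rfl⟩ := hsub b hb
    refine ⟨img π l, h1 l hl, ?_⟩
    exact (fs_img hv l).symm
  · rintro ⟨m, hm, rfl⟩
    have hl := h2 m hm
    refine Set.mem_smul_set.mpr ⟨_, hL _ hl, ?_⟩
    rw [fs_img_pinv hv]
    exact smul_inv_smul _ _

theorem lor_eq_or (a b : ℕ) : Nat.lor a b = a ||| b := rfl

/-- The block through `u` is among the candidates. -/
theorem mask_mem_cands2 (hn : n ≤ 24) {B : Set (Finset GolayPt)} (hB : St t k n B) {L : List ℕ} {u : ℕ}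
    (hu : pop u = t) (hult : u < 2 ^ n) (hL : ∀ l ∈ L, fs l ∈ B) (hunc : ∀ l ∈ L, ¬ fs u ⊆ fs l)
    {b : Finset GolayPt} (hb : b ∈ B) (hub : fs u ⊆ b) : mask b ∈ cands2 t k n u L := by
  have hbe : fs (mask b) = b := fs_mask b
  have hulow : u < 2 ^ 24 := lt_of_lt_of_le hult (Nat.pow_le_pow_right (by norm_num) hn)
  have hnot : ∀ l ∈ L, fs l ≠ b := by
    intro l hl he
    exact hunc l hl (by rw [he]; exact hub)
  obtain ⟨hbc, hbP⟩ := hB.blocks b hb
  refine List.mem_filter.mpr ⟨?_, ?_⟩
  · refine List.mem_map.mpr ⟨mask (b \ fs u), mem_chooseL _ _ _ ?_ ?_, ?_⟩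
    · rw [Finset.card_sdiff_of_subset hub, hbc, card_fs, hu]
    · intro q hq
      obtain ⟨hq1, hq2⟩ := Finset.mem_sdiff.mp hq
      refine List.mem_filter.mpr ⟨List.mem_range.mpr (mem_Pn.mp (hbP hq1)), ?_⟩
      simp only [Bool.not_eq_true']
      rw [← Bool.not_eq_true, lor_eq_or, Nat.testBit_or, Bool.or_eq_true]
      rintro (h | h)
      · exact hq2 (mem_fs.mpr h)
      · obtain ⟨l, hl, h3, h4⟩ := testBit_exclM h
        have h5 : (fs l ∩ fs u).card + 1 ≤ (b ∩ fs l).card := by
          have hq3 : q ∈ fs l := mem_fs.mpr h4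
          have hsub : insert q (fs l ∩ fs u) ⊆ b ∩ fs l := by
            intro x hx
            rcases Finset.mem_insert.mp hx with rfl | hx
            · exact Finset.mem_inter.mpr ⟨hq1, hq3⟩
            · obtain ⟨h6, h7⟩ := Finset.mem_inter.mp hx
              exact Finset.mem_inter.mpr ⟨hub h7, h6⟩
          have hnm : q ∉ fs l ∩ fs u := fun hh => hq2 (Finset.mem_inter.mp hh).2
          have := Finset.card_le_card hsub
          rwa [Finset.card_insert_of_notMem hnm] at this
        have h6 : (fs l ∩ fs u).card = pop (Nat.land l u) := by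
          rw [← fs_land, card_fs]
          rfl
        rw [h6, h3] at h5
        exact hnot l hl (hB.eq_of_inter hb (hL l hl) h5).symm
    · apply eq_of_fs_eq
      · rw [lor_eq_or]
        exact Nat.or_lt_two_pow (mask_lt _) hulow
      · exact mask_lt _
      · rw [lor_eq_or, fs_lor, fs_mask, fs_mask]
        exact Finset.sdiff_union_of_subset hub
  · simp only [List.all_eq_true]
    intro l hl
    have := pop_land_lt hB (a := mask b) (l := l) (by rw [hbe]; exact hb) (hL l hl)
      (by rw [hbe]; exact (hnot l hl).symm)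
    simpa [Nat.blt] using this

/-- Soundness of a run. -/
theorem run2_sound (hn : n ≤ 24) (htk : t ≤ k) (hcov : ∀ s, s ⊆ Pn n → s.card = t → ∃ m ∈ B0, s ⊆ fs m)
    (c : SC) :
    (∀ L P ex, run2 t k n B0 c true L P ex = true → Good2 t k n B0 L) ∧
    (∀ L P ex, run2 t k n B0 c false L P ex = true → (∀ e ∈ ex, Good2 t k n B0 (e :: L)) →
      ∀ B, St t k n B → (∀ l ∈ L, fs l ∈ B) → ∀ a ∈ P, fs a ∈ B → Concl n B0 B) := by
  induction c with
  | leaf π =>
    refine ⟨fun L P ex h => leaf_sound2 htk hcov h, fun L P ex h => ?_⟩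
    simp [run2] at h
  | dead =>
    refine ⟨fun L P ex h => ?_, fun L P ex h _ B _ _ a ha => ?_⟩
    · simp [run2] at h
    · simp only [run2, List.isEmpty_iff] at h
      subst h
      simp at ha
  | pick u br ih =>
    refine ⟨fun L P ex h => ?_, fun L P ex h => ?_⟩
    · simp only [run2, Bool.and_eq_true, Nat.beq_eq, List.all_eq_true, Bool.not_eq_true'] at h
      obtain ⟨⟨⟨hu, hult⟩, hunc⟩, hbr⟩ := h
      intro B hB hL
      have hult' : u < 2 ^ n := by simpa [Nat.blt] using hult
      obtain ⟨b, ⟨hb1, hb2⟩, _⟩ : ∃! b, b ∈ B ∧ fs u ⊆ b :=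
        hB.cover (fs u) (fs_sub_Pn hn hult') (by rw [card_fs]; exact hu)
      have hbe : fs (mask b) = b := fs_mask b
      have hulow : u < 2 ^ 24 := lt_of_lt_of_le hult' (Nat.pow_le_pow_right (by norm_num) hn)
      have hunc' : ∀ l ∈ L, ¬ fs u ⊆ fs l := by
        intro l hl h5
        have h1 := hunc l hl
        have h6 : fs (Nat.land l u) = fs u := by
          have : fs (Nat.land l u) = fs l ∩ fs u := fs_land l u
          rw [this]
          exact Finset.inter_eq_right.mpr h5
        have h7 : Nat.land l u < 2 ^ 24 := lt_of_le_of_lt Nat.and_le_right hulow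
        have h2 := eq_of_fs_eq h7 hulow h6
        rw [h2] at h1
        simp at h1
      exact ih.2 L _ [] hbr (by simp) B hB hL _ (mask_mem_cands2 hn hB hu hult' hL hunc' hb1 hb2)
        (by rw [hbe]; exact hb1)
    · simp [run2] at h
  | expl c sub rest ih1 ih2 =>
    refine ⟨fun L P ex h => ?_, fun L P ex h hex B hB hL a ha hab => ?_⟩
    · simp [run2] at h
    · simp only [run2, Bool.and_eq_true] at h
      obtain ⟨h1, h2⟩ := h
      have hG : Good2 t k n B0 (c :: L) := ih1.1 _ _ _ h1
      by_cases hac : a = c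
      · subst hac
        refine hG B hB (fun l hl => ?_)
        rcases List.mem_cons.mp hl with rfl | hl
        · exact hab
        · exact hL l hl
      · refine ih2.2 L _ _ h2 (fun e he => ?_) B hB hL a (mem_of_mem_eraseN ha hac) hab
        rcases List.mem_cons.mp he with rfl | he
        · exact hG
        · exact hex e he
  | sym c π c' rest ih =>
    refine ⟨fun L P ex h => ?_, fun L P ex h hex B hB hL a ha hab => ?_⟩
    · simp [run2] at h
    · simp only [run2, Bool.and_eq_true, List.all_eq_true, inL_iff] at h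
      obtain ⟨⟨⟨⟨h2, h3⟩, h4⟩, h5⟩, h6⟩ := h
      by_cases hac : a = c
      · subst hac
        obtain ⟨hv, hfix⟩ := permOK_fix h2
        have hSt := hB.smul hfix
        have hc' : fs c' ∈ (mk π) • B := by
          rw [← Nat.eq_of_beq_eq_true h4, fs_img hv]
          exact Set.smul_mem_smul_set hab
        have hLB : ∀ l ∈ c' :: L, fs l ∈ (mk π) • B := by
          intro l hl
          rcases List.mem_cons.mp hl with rfl | hl
          · exact hc'
          · refine Set.mem_smul_set.mpr ⟨_, hL _ (h5 l hl).2, ?_⟩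
            rw [fs_img_pinv hv]
            exact smul_inv_smul _ _
        obtain ⟨g, hg, he⟩ := hex c' h3 _ hSt hLB
        refine ⟨g * mk π, hg.mul hfix, ?_⟩
        rw [mul_smul]
        exact he
      · exact ih.2 L _ _ h6 hex B hB hL a (mem_of_mem_eraseN ha hac) hab

end

/-- The base of a search. -/
theorem base2 {t k n : ℕ} {B0 : List ℕ} (hn : n ≤ 24) (htk : t ≤ k)
    (hcov : ∀ s, s ⊆ Pn n → s.card = t → ∃ m ∈ B0, s ⊆ fs m) {cert : SC}
    (hrun : run2 t k n B0 cert true [] [] [] = true) :
    ∀ B, St t k n B → Concl n B0 B := fun B hB =>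
  (run2_sound hn htk hcov cert).1 [] [] [] hrun B hB (by simp)

/-- Extension by one point. -/
theorem ext2 {t k n : ℕ} {base top : List ℕ} (hn : n < 24) (htk : t ≤ k)
    (hT : ∀ B, St t k n B → Concl n base B)
    (hcov : ∀ s, s ⊆ Pn (n + 1) → s.card = t + 1 → ∃ m ∈ top, s ⊆ fs m) {cert : SC}
    (hrun : run2 (t + 1) (k + 1) (n + 1) top cert true (base.map (addBit n)) [] [] = true) :
    ∀ B, St (t + 1) (k + 1) (n + 1) B → Concl (n + 1) top B := by
  intro B hB
  obtain ⟨g, hg, he⟩ := hT _ (hB.der hn)
  have hg' : FixHi (n + 1) g := fun q hq => hg q (by omega)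
  have hgp : g (pt n) = pt n := hg _ (by rw [idx_pt hn])
  have hB1 : St (t + 1) (k + 1) (n + 1) (g • B) := hB.smul hg'
  have hsmul_ins : ∀ (h : Equiv.Perm GolayPt), h (pt n) = pt n → ∀ d : Finset GolayPt,
      h • insert (pt n) d = insert (pt n) (h • d) := by
    intro h hh d
    rw [Finset.smul_finset_insert]
    congr 1
  have hL : ∀ m ∈ base.map (addBit n), fs m ∈ g • B := by
    intro m' hm'
    obtain ⟨m, hm, rfl⟩ := List.mem_map.mp hm'
    have h1 : fs m ∈ g • Der n B := by
      rw [he]
      exact ⟨m, hm, rfl⟩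
    obtain ⟨d, hd, hde⟩ := Set.mem_smul_set.mp h1
    rw [fs_addBit hn, ← hde]
    have h2 : g • insert (pt n) d = insert (pt n) (g • d) := hsmul_ins g hgp d
    change insert (pt n) (g • d) ∈ g • B
    rw [← h2]
    exact Set.smul_mem_smul_set hd.2
  obtain ⟨h, hh, he2⟩ := (run2_sound (by omega) (by omega) hcov cert).1 _ _ _ hrun _ hB1 hL
  refine ⟨h * g, hh.mul hg', ?_⟩
  rw [mul_smul]
  exact he2

end CfsgLib.StCert
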