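/-
Carrying a Steiner system on an arbitrary type to the first points of the twenty-four.
-/
import Cfsg.Agent.Lib.StCert.Fast

set_option autoImplicit false
set_option maxRecDepth 100000

namespace CfsgLib.StCert

open Cfsg CfsgLib.Golay
open scoped Pointwise

theorem card_Pn {n : ℕ} (hn : n ≤ 24) : (Pn n).card = n := by
  induction n with
  | zero => simp [Pn]
  | succ n ih =>
    rw [Pn_succ (by omega), Finset.card_insert_of_notMem, ih (by omega)]
    intro h
    have := mem_Pn.mp h
    rw [idx_pt (by omega)] at this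
    omega

universe u v

/-- The embedding into the points given by a bijection with the first points. -/
def embP {α : Type u} {n : ℕ} (e : α ≃ ↥(Pn n)) : α ↪ GolayPt :=
  e.toEmbedding.trans (Function.Embedding.subtype _)

theorem embP_apply {α : Type u} {n : ℕ} (e : α ≃ ↥(Pn n)) (a : α) : embP e a = (e a : GolayPt) := rfl

theorem embP_mem {α : Type u} {n : ℕ} (e : α ≃ ↥(Pn n)) (a : α) : embP e a ∈ Pn n := (e a).2

section
variable {α : Type u} [Fintype α] [DecidableEq α]

theorem St_transport {t k n : ℕ} (e : α ≃ ↥(Pn n)) {B : Set (Finset α)} (hB : IsSteinerSystem t k B) :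
    St t k n ((fun b => b.map (embP e)) '' B) := by
  constructor
  · rintro _ ⟨b, hb, rfl⟩
    refine ⟨by rw [Finset.card_map]; exact hB.1 b hb, ?_⟩
    intro q hq
    obtain ⟨a, _, rfl⟩ := Finset.mem_map.mp hq
    exact embP_mem e a
  · intro s hs hc
    have hs' : (Finset.univ.filter fun a => embP e a ∈ s).map (embP e) = s := by
      ext q
      simp only [Finset.mem_map, Finset.mem_filter, Finset.mem_univ, true_and]
      constructor
      · rintro ⟨a, ha, rfl⟩
        exact ha
      · intro hq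
        refine ⟨e.symm ⟨q, hs hq⟩, ?_, ?_⟩
        · simpa [embP_apply] using hq
        · simp [embP_apply]
    set s' := Finset.univ.filter fun a => embP e a ∈ s with hsdef
    have hc' : s'.card = t := by
      rw [← hc, ← hs', Finset.card_map]
    obtain ⟨b, ⟨hb1, hb2⟩, hU⟩ := hB.2 s' hc'
    refine ⟨b.map (embP e), ⟨⟨b, hb1, rfl⟩, ?_⟩, ?_⟩
    · rw [← hs']
      exact Finset.map_subset_map.mpr hb2
    · rintro _ ⟨⟨c, hc1, rfl⟩, hc2⟩
      rw [← hs'] at hc2
      have h3 : c = b := hU c ⟨hc1, Finset.map_subset_map.mp hc2⟩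
      show c.map (embP e) = b.map (embP e)
      rw [h3]

/-- The standard form of a Steiner system. -/
theorem std_of_T {t k n : ℕ} {B0 : List ℕ} (hn : n ≤ 24) (hT : ∀ B, St t k n B → Concl n B0 B)
    (hα : Fintype.card α = n) {B : Set (Finset α)} (hB : IsSteinerSystem t k B) :
    ∃ f : α ≃ ↥(Pn n), ∀ b : Finset α, b ∈ B ↔ b.map (embP f) ∈ setOf B0 := by
  have hcard : Fintype.card α = Fintype.card ↥(Pn n) := by
    rw [hα, Fintype.card_coe, card_Pn hn]
  let e : α ≃ ↥(Pn n) := Fintype.equivOfCardEq hcard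
  obtain ⟨g, hg, he⟩ := hT _ (St_transport e hB)
  have hiff : ∀ x, g x ∈ Pn n ↔ x ∈ Pn n := by
    intro x
    refine ⟨fun h => ?_, fun h => hg.mem h⟩
    have := hg.inv.mem h
    simpa using this
  let f : α ≃ ↥(Pn n) := e.trans (g.subtypePerm hiff)
  have hmap : ∀ b : Finset α, b.map (embP f) = g • b.map (embP e) := by
    intro b
    ext q
    simp only [Finset.mem_map, Finset.mem_smul_finset]
    constructor
    · rintro ⟨a, ha, rfl⟩
      exact ⟨embP e a, ⟨a, ha, rfl⟩, rfl⟩
    · rintro ⟨_, ⟨a, ha, rfl⟩, rfl⟩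
      exact ⟨a, ha, rfl⟩
  refine ⟨f, fun b => ?_⟩
  rw [← he, hmap]
  constructor
  · intro hb
    exact Set.smul_mem_smul_set ⟨b, hb, rfl⟩
  · intro hb
    obtain ⟨_, ⟨b', hb', rfl⟩, h2⟩ := Set.mem_smul_set.mp hb
    have h3 : b'.map (embP e) = b.map (embP e) := smul_left_cancel g h2
    rw [← Finset.map_inj.mp h3]
    exact hb'

end

variable {α : Type u} [Fintype α] [DecidableEq α] {β : Type v} [Fintype β] [DecidableEq β]

/-- Isomorphism of two systems with a common standard form. -/
theorem iso_of_T {t k n : ℕ} {B0 : List ℕ} (hn : n ≤ 24) (hT : ∀ B, St t k n B → Concl n B0 B)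
    (hα : Fintype.card α = n) (hβ : Fintype.card β = n) {B : Set (Finset α)} {B' : Set (Finset β)}
    (hB : IsSteinerSystem t k B) (hB' : IsSteinerSystem t k B') : SetSystemIso B B' := by
  obtain ⟨f, hf⟩ := std_of_T hn hT hα hB
  obtain ⟨f', hf'⟩ := std_of_T hn hT hβ hB'
  refine ⟨f.trans f'.symm, ?_⟩
  have h1 : ∀ b : Finset α, (b.image (f.trans f'.symm)).map (embP f') = b.map (embP f) := by
    intro b
    ext q
    simp only [Finset.mem_map, Finset.mem_image]
    constructor
    · rintro ⟨_, ⟨a, ha, rfl⟩, rfl⟩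
      refine ⟨a, ha, ?_⟩
      simp [embP_apply]
    · rintro ⟨a, ha, rfl⟩
      refine ⟨_, ⟨a, ha, rfl⟩, ?_⟩
      simp [embP_apply]
  ext c
  constructor
  · rintro ⟨b, hb, rfl⟩
    rw [hf', h1]
    exact (hf b).mp hb
  · intro hc
    have h2 : (c.image (f'.trans f.symm)).map (embP f) = c.map (embP f') := by
      ext q
      simp only [Finset.mem_map, Finset.mem_image]
      constructor
      · rintro ⟨_, ⟨a, ha, rfl⟩, rfl⟩
        refine ⟨a, ha, ?_⟩
        simp [embP_apply]
      · rintro ⟨a, ha, rfl⟩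
        refine ⟨_, ⟨a, ha, rfl⟩, ?_⟩
        simp [embP_apply]
    refine ⟨c.image (f'.trans f.symm), ?_, ?_⟩
    · rw [hf, h2]
      exact (hf' c).mp hc
    · ext q
      simp only [Finset.mem_image]
      constructor
      · rintro ⟨_, ⟨a, ha, rfl⟩, rfl⟩
        simpa using ha
      · intro hq
        exact ⟨(f'.trans f.symm) q, ⟨q, hq, rfl⟩, by simp⟩

end CfsgLib.StCert
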