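/-
The chain of Steiner systems from the projective plane of order four up to S(5, 8, 24).
-/
import Cfsg.Agent.Lib.StCert.cPData
import Cfsg.Agent.Lib.StCert.c22Data
import Cfsg.Agent.Lib.StCert.c23Data
import Cfsg.Agent.Lib.StCert.c24Data
import Cfsg.Agent.Lib.Golay.Steiner

set_option autoImplicit false
set_option maxRecDepth 100000

namespace CfsgLib.StCert.W24

open Cfsg CfsgLib.Golay CfsgLib.StCert

set_option maxHeartbeats 0 in
theorem T21 : ∀ B, St 2 5 21 B → Concl 21 D21 B :=
  base2 (by norm_num) (by norm_num) St_D21.cov (cert := cP) (by decide +kernel)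

set_option maxHeartbeats 0 in
theorem T22 : ∀ B, St 3 6 22 B → Concl 22 D22 B :=
  ext2 (t := 2) (k := 5) (n := 21) (base := D21) (top := D22) (cert := c22) (by norm_num) (by norm_num) T21
    St_D22.cov (by decide +kernel)

set_option maxHeartbeats 0 in
theorem T23 : ∀ B, St 4 7 23 B → Concl 23 D23 B :=
  ext2 (t := 3) (k := 6) (n := 22) (base := D22) (top := D23) (cert := c23) (by norm_num) (by norm_num) T22
    St_D23.cov (by decide +kernel)

theorem Pn_24 : Pn 24 = Finset.univ := by
  ext q
  simp [mem_Pn, idx_lt]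

theorem E24_octads : (octadList.all fun c => inL c E24) = true ∧ (E24.all fun c => inL c octadList) = true := by
  constructor <;> decide +kernel

theorem setOf_E24 : setOf E24 = octads := by
  rw [octads_eq]
  obtain ⟨h1, h2⟩ := E24_octads
  simp only [List.all_eq_true, inL_iff] at h1 h2
  ext b
  constructor
  · rintro ⟨m, hm, rfl⟩
    exact ⟨m, h2 m hm, rfl⟩
  · rintro ⟨m, hm, rfl⟩
    exact ⟨m, h1 m hm, rfl⟩

theorem St_E24 : St 5 8 24 (setOf E24) := by
  rw [setOf_E24]
  constructor
  · intro b hb
    refine ⟨octads_steiner.1 b hb, ?_⟩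
    rw [Pn_24]
    exact Finset.subset_univ _
  · intro s _ hc
    exact octads_steiner.2 s hc

set_option maxHeartbeats 0 in
theorem T24 : ∀ B, St 5 8 24 B → Concl 24 E24 B :=
  ext2 (t := 4) (k := 7) (n := 23) (base := D23) (top := E24) (cert := c24) (by norm_num) (by norm_num) T23
    St_E24.cov (by decide +kernel)

end CfsgLib.StCert.W24
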