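/-
Automorphism groups of the Witt designs on 24, 23 and 22 points.
-/
import Cfsg.Agent.Lib.StCert.Chain24
import Cfsg.Prelude.Def_Sporadic
import Cfsg.Agent.S0369
import Cfsg.Agent.Lib.Golay.SimpleUse
import Cfsg.Agent.Lib.Golay.Trans

set_option autoImplicit false
set_option maxRecDepth 100000

namespace CfsgLib.StCert.W24

open Cfsg CfsgLib.Golay CfsgLib.StCert
open scoped Pointwise

theorem aut24_eq : autHi 24 (setOf E24) = M24 := by
  ext g
  rw [mem_autHi, setOf_E24, Cfsg.Agent.S0369.aux]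
  constructor
  · exact fun h => h.2
  · intro h
    exact ⟨fun q hq => absurd (idx_lt q) (by omega), h⟩

theorem mem_aut23 {g : Equiv.Perm GolayPt} : g ∈ autHi 23 (setOf D23) ↔ g ∈ M24 ∧ g (pt 23) = pt 23 := by
  rw [mem_aut_der_iff (t := 4) (k := 7) (by norm_num) der23 St_E24 uniq24, aut24_eq]

/-- The stabiliser of a point in `M24`, as permutations. -/
theorem map_stab1 (p : GolayPt) {g : Equiv.Perm GolayPt} :
    g ∈ (MulAction.stabilizer M24 p).map M24.subtype ↔ g ∈ M24 ∧ g p = p := by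
  simp only [Subgroup.mem_map, MulAction.mem_stabilizer_iff]
  constructor
  · rintro ⟨x, hx, rfl⟩
    exact ⟨x.2, hx⟩
  · rintro ⟨h1, h2⟩
    exact ⟨⟨g, h1⟩, h2, rfl⟩

theorem map_stab2 (p q : GolayPt) {g : Equiv.Perm GolayPt} :
    g ∈ (MulAction.stabilizer M24 p ⊓ MulAction.stabilizer M24 q).map M24.subtype ↔ g ∈ M24 ∧ g p = p ∧ g q = q := by
  simp only [Subgroup.mem_map, Subgroup.mem_inf, MulAction.mem_stabilizer_iff]
  constructor
  · rintro ⟨x, ⟨hx, hy⟩, rfl⟩
    exact ⟨x.2, hx, hy⟩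
  · rintro ⟨h1, h2, h3⟩
    exact ⟨⟨g, h1⟩, ⟨h2, h3⟩, rfl⟩

theorem aut23_eq : autHi 23 (setOf D23) = (MulAction.stabilizer M24 (pt 23)).map M24.subtype := by
  ext g
  rw [mem_aut23, map_stab1]

noncomputable def aut23Equiv : autHi 23 (setOf D23) ≃* MulAction.stabilizer M24 (pt 23) :=
  (MulEquiv.subgroupCongr aut23_eq).trans
    ((Subgroup.equivMapOfInjective _ M24.subtype M24.subtype_injective).symm)

theorem pt_ne' {i j : ℕ} (hi : i < 24) (hj : j < 24) (h : i ≠ j) : pt i ≠ pt j := by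
  intro he
  apply h
  have := congrArg idx he
  rwa [idx_pt hi, idx_pt hj] at this

/-- The subgroup of the automorphisms of the system on 22 points preserving the first extension. -/
noncomputable def Sub22 : Subgroup (Equiv.Perm GolayPt) :=
  (MulAction.stabilizer M24 (pt 23) ⊓ MulAction.stabilizer M24 (pt 22)).map M24.subtype

theorem mem_Sub22 {g : Equiv.Perm GolayPt} : g ∈ Sub22 ↔ g ∈ M24 ∧ g (pt 23) = pt 23 ∧ g (pt 22) = pt 22 :=
  map_stab2 _ _

noncomputable def Sub22Equiv : Sub22 ≃* ↥(MulAction.stabilizer M24 (pt 23) ⊓ MulAction.stabilizer M24 (pt 22)) :=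
  (Subgroup.equivMapOfInjective _ M24.subtype M24.subtype_injective).symm

theorem mem_aut22_iff {g : Equiv.Perm GolayPt} :
    (g ∈ autHi 22 (setOf D22) ∧ g • setOf D23 = setOf D23) ↔ g ∈ Sub22 := by
  rw [mem_Sub22]
  constructor
  · rintro ⟨h1, h2⟩
    have h3 : g ∈ autHi 23 (setOf D23) := ⟨fun q hq => h1.1 q (by omega), h2⟩
    obtain ⟨h4, h5⟩ := mem_aut23.mp h3
    exact ⟨h4, h5, h1.1.pt_eq (by norm_num)⟩
  · rintro ⟨h1, h2, h3⟩
    have h4 : g ∈ autHi 23 (setOf D23) := mem_aut23.mpr ⟨h1, h2⟩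
    have h5 := aut_der (n := 22) (by norm_num) h4 h3
    rw [der22] at h5
    exact ⟨h5, h4.2⟩

theorem tau_mem : mk tau ∈ autHi 22 (setOf D22) := by
  have h := tau_chk
  simp only [leafOK, Bool.and_eq_true, List.all_eq_true, inL_iff] at h
  obtain ⟨⟨hp, h1⟩, h2⟩ := h
  obtain ⟨hv, hfix⟩ := permOK_fix hp
  refine ⟨hfix, ?_⟩
  apply Set.Subset.antisymm
  · rintro _ ⟨x, ⟨m, hm, rfl⟩, rfl⟩
    exact ⟨img tau m, h1 m hm, (fs_img hv m).symm⟩
  · rintro _ ⟨m, hm, rfl⟩
    refine Set.mem_smul_set.mpr ⟨fs (img (pinv tau) m), ⟨_, h2 m hm, rfl⟩, ?_⟩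
    rw [fs_img_pinv hv]
    exact smul_inv_smul _ _

theorem tau_smul : mk tau • setOf D23 = setOf D23x := by
  have h := tau_chk2
  simp only [leafOK, Bool.and_eq_true, List.all_eq_true, inL_iff] at h
  obtain ⟨⟨hp, h1⟩, h2⟩ := h
  obtain ⟨hv, hfix⟩ := permOK_fix hp
  apply Set.Subset.antisymm
  · rintro _ ⟨x, ⟨m, hm, rfl⟩, rfl⟩
    exact ⟨img tau m, h1 m hm, (fs_img hv m).symm⟩
  · rintro _ ⟨m, hm, rfl⟩
    refine Set.mem_smul_set.mpr ⟨fs (img (pinv tau) m), ⟨_, h2 m hm, rfl⟩, ?_⟩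
    rw [fs_img_pinv hv]
    exact smul_inv_smul _ _

theorem setOf_ne : setOf D23 ≠ setOf D23x := by
  intro he
  have h0 : (D23x.any fun m => !inL m D23) = true := by decide +kernel
  obtain ⟨m, hm, h1⟩ := List.any_eq_true.mp h0
  have h2 : fs m ∈ setOf D23 := by
    rw [he]
    exact ⟨m, hm, rfl⟩
  obtain ⟨m', hm', h3⟩ := h2
  have hblt : ∀ a b : ℕ, Nat.blt a b = true → a < b := fun a b h => by simpa [Nat.blt] using h
  have hlt : ∀ a ∈ D23x, a < 2 ^ 24 := fun a ha =>
    lt_of_lt_of_le (hblt _ _ (List.all_eq_true.mp lt_D23x a ha)) (Nat.pow_le_pow_right (by norm_num) (by norm_num))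
  have hlt' : ∀ a ∈ D23, a < 2 ^ 24 := fun a ha =>
    lt_of_lt_of_le (hblt _ _ (List.all_eq_true.mp lt_D23 a ha)) (Nat.pow_le_pow_right (by norm_num) (by norm_num))
  have h4 := eq_of_fs_eq (hlt m hm) (hlt' m' hm') h3
  rw [h4, inL_iff.mpr hm'] at h1
  simp at h1

theorem two_ext {g : Equiv.Perm GolayPt} (hg : g ∈ autHi 22 (setOf D22)) :
    g • setOf D23 = setOf D23 ∨ g • setOf D23 = setOf D23x := by
  obtain ⟨h1, h2⟩ := smul_top_of_aut (t := 3) (k := 6) (n := 22) (by norm_num) der22 St_D23 hg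
  exact exts23 _ h1 h2

universe u
variable {α : Type u} [Fintype α] [DecidableEq α]

theorem aut24_result (hα : Fintype.card α = 24) {B : Set (Finset α)} (hB : IsSteinerSystem 5 8 B) :
    IsM24 (setSystemAut B) ∧ MulAction.IsMultiplyPretransitive (setSystemAut B) α 5 := by
  obtain ⟨f, hf⟩ := std_of_T (n := 24) (by norm_num) T24 hα hB
  have hX : ∀ x ∈ setOf E24, x ⊆ Pn 24 := fun x hx => (St_E24.blocks x hx).2
  let e : setSystemAut B ≃* M24 := (autEquiv f hf hX).trans (MulEquiv.subgroupCongr aut24_eq)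
  haveI := simple_M24
  refine ⟨⟨e.isSimpleGroup, ?_⟩, multi_of_hi f hf hX ?_⟩
  · rw [Nat.card_congr e.toEquiv, card_M24]
  · intro x y _ _
    obtain ⟨k, hk⟩ := MulAction.exists_smul_eq (M := M24) x y
    refine ⟨k, by rw [aut24_eq]; exact k.2, fun i => ?_⟩
    exact DFunLike.congr_fun hk i

theorem aut23_result (hα : Fintype.card α = 23) {B : Set (Finset α)} (hB : IsSteinerSystem 4 7 B) :
    IsM23 (setSystemAut B) ∧ MulAction.IsMultiplyPretransitive (setSystemAut B) α 4 := by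
  obtain ⟨f, hf⟩ := std_of_T (n := 23) (by norm_num) T23 hα hB
  have hX : ∀ x ∈ setOf D23, x ⊆ Pn 23 := fun x hx => (St_D23.blocks x hx).2
  let e : setSystemAut B ≃* MulAction.stabilizer M24 (pt 23) := (autEquiv f hf hX).trans aut23Equiv
  haveI := simple_stab_pt (pt 23)
  refine ⟨⟨e.isSimpleGroup, ?_⟩, multi_of_hi f hf hX ?_⟩
  · rw [Nat.card_congr e.toEquiv, card_stab_pt]
  · intro x y hx hy
    obtain ⟨k, hk⟩ := M24_mulTrans5.exists_smul_eq
      (consTuple x (pt 23) (fun i => ne_pt_of_mem (by norm_num) (hx i)))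
      (consTuple y (pt 23) (fun i => ne_pt_of_mem (by norm_num) (hy i)))
    have h0 := DFunLike.congr_fun hk 0
    have h1 : ((k : M24) : Equiv.Perm GolayPt) (pt 23) = pt 23 := h0
    refine ⟨k, mem_aut23.mpr ⟨k.2, h1⟩, fun i => ?_⟩
    exact DFunLike.congr_fun hk i.succ

theorem aut22_result (hα : Fintype.card α = 22) {B : Set (Finset α)} (hB : IsSteinerSystem 3 6 B) :
    Nat.card (setSystemAut B) = 887040 ∧ MulAction.IsMultiplyPretransitive (setSystemAut B) α 3 ∧
      ∃ H : Subgroup (setSystemAut B), H.index = 2 ∧ IsM22 H := by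
  obtain ⟨f, hf⟩ := std_of_T (n := 22) (by norm_num) T22 hα hB
  have hX : ∀ x ∈ setOf D22, x ⊆ Pn 22 := fun x hx => (St_D22.blocks x hx).2
  have hmap := map_extH f hf hX
  have hpt : pt 23 ≠ pt 22 := pt_ne' (by norm_num) (by norm_num) (by norm_num)
  let H : Subgroup (setSystemAut B) := (Sub22.comap (extH f)).subgroupOf (setSystemAut B)
  have hH : ∀ b : setSystemAut B, b ∈ H ↔ extH f b ∈ Sub22 := fun b => Iff.rfl
  have hY : ∀ b : setSystemAut B, extH f b ∈ autHi 22 (setOf D22) := by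
    intro b
    rw [← hmap]
    exact Subgroup.mem_map_of_mem _ b.2
  have hH' : ∀ b : setSystemAut B, b ∈ H ↔ extH f b • setOf D23 = setOf D23 := by
    intro b
    rw [hH, ← mem_aut22_iff]
    exact ⟨fun h => h.2, fun h => ⟨hY b, h⟩⟩
  have hindex : H.index = 2 := by
    rw [Subgroup.index_eq_two_iff]
    have h0 := tau_mem
    rw [← hmap] at h0
    obtain ⟨a0, ha0, hae⟩ := Subgroup.mem_map.mp h0
    refine ⟨⟨a0, ha0⟩, fun b => ?_⟩
    have hmul : extH f ((b * ⟨a0, ha0⟩ : setSystemAut B) : Equiv.Perm α) = extH f b * mk tau := by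
      rw [Subgroup.coe_mul, map_mul, hae]
    rw [hH', hH']
    have hinj : ∀ U V : Set (Finset GolayPt), extH f (b : Equiv.Perm α) • U = extH f (b : Equiv.Perm α) • V → U = V :=
      fun U V h => smul_left_cancel _ h
    rw [hmul, mul_smul, tau_smul]
    rcases two_ext (hY b) with h1 | h1
    · right
      refine ⟨h1, fun h2 => setOf_ne ?_⟩
      exact hinj _ _ (h1.trans h2.symm)
    · left
      have h3 : extH f (b : Equiv.Perm α) * mk tau ∈ autHi 22 (setOf D22) := mul_mem (hY b) tau_mem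
      have h4 := two_ext h3
      rw [mul_smul, tau_smul] at h4
      rcases h4 with h4 | h4
      · exact ⟨h4, fun h5 => setOf_ne (h5.symm.trans h1)⟩
      · exfalso
        exact setOf_ne (hinj _ _ (h1.trans h4.symm))
  let ψ : H →* Sub22 :=
    { toFun := fun g => ⟨extH f g, (hH g).mp g.2⟩
      map_one' := Subtype.ext (map_one _)
      map_mul' := fun a b => Subtype.ext (map_mul _ _ _) }
  have hψ : Function.Bijective ψ := by
    constructor
    · intro a b hab
      have h1 : extH f ((a : setSystemAut B) : Equiv.Perm α) = extH f ((b : setSystemAut B) : Equiv.Perm α) :=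
        congrArg Subtype.val hab
      exact Subtype.ext (Subtype.ext (extH_inj f h1))
    · rintro ⟨k, hk⟩
      have h1 := (mem_aut22_iff.mpr hk).1
      rw [← hmap] at h1
      obtain ⟨g, hg, rfl⟩ := Subgroup.mem_map.mp h1
      exact ⟨⟨⟨g, hg⟩, hk⟩, rfl⟩
  let e : H ≃* ↥(MulAction.stabilizer M24 (pt 23) ⊓ MulAction.stabilizer M24 (pt 22)) :=
    (MulEquiv.ofBijective ψ hψ).trans Sub22Equiv
  haveI := simple_stab_pair hpt
  have hM : IsM22 H := ⟨e.isSimpleGroup, by rw [Nat.card_congr e.toEquiv, card_stab_pair hpt]⟩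
  refine ⟨?_, ?_, H, hindex, hM⟩
  · have h1 := Subgroup.card_mul_index H
    rw [hindex, hM.2] at h1
    omega
  · refine multi_of_hi f hf hX ?_
    intro x y hx hy
    have hnx : ∀ (x : Fin 3 ↪ GolayPt), (∀ i, x i ∈ Pn 22) → ∀ i, x i ≠ pt 22 :=
      fun x hx i => ne_pt_of_mem (by norm_num) (hx i)
    have hm : ∀ (x : Fin 3 ↪ GolayPt) (hx : ∀ i, x i ∈ Pn 22), ∀ i, consTuple x (pt 22) (hnx x hx) i ≠ pt 23 := by
      intro x hx i
      refine Fin.cases ?_ (fun j => ?_) i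
      · exact hpt.symm
      · simp only [consTuple_succ]
        intro he
        have := mem_Pn.mp (hx j)
        rw [he, idx_pt (by norm_num)] at this
        omega
    obtain ⟨k, hk⟩ := M24_mulTrans5.exists_smul_eq
      (consTuple (consTuple x (pt 22) (hnx x hx)) (pt 23) (hm x hx))
      (consTuple (consTuple y (pt 22) (hnx y hy)) (pt 23) (hm y hy))
    have h0 := DFunLike.congr_fun hk 0
    have h1 : ((k : M24) : Equiv.Perm GolayPt) (pt 23) = pt 23 := h0
    have h2 := DFunLike.congr_fun hk (Fin.succ 0)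
    have h3 : ((k : M24) : Equiv.Perm GolayPt) (pt 22) = pt 22 := h2
    refine ⟨k, (mem_aut22_iff.mpr (mem_Sub22.mpr ⟨k.2, h1, h3⟩)).1, fun i => ?_⟩
    exact DFunLike.congr_fun hk i.succ.succ

end CfsgLib.StCert.W24
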