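/-
Automorphism groups of Steiner systems, compared with subgroups of the permutations of the twenty-four points.
-/
import Cfsg.Agent.Lib.StCert.Transport

set_option autoImplicit false
set_option maxRecDepth 100000

namespace CfsgLib.StCert

open Cfsg CfsgLib.Golay
open scoped Pointwise

/-- Automorphisms of a system on the first points. -/
def autHi (n : ℕ) (X : Set (Finset GolayPt)) : Subgroup (Equiv.Perm GolayPt) where
  carrier := {h | FixHi n h ∧ h • X = X}
  mul_mem' := by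
    rintro a b ⟨h1, h2⟩ ⟨h3, h4⟩
    refine ⟨h1.mul h3, ?_⟩
    rw [mul_smul, h4, h2]
  one_mem' := ⟨fun q _ => rfl, one_smul _ _⟩
  inv_mem' := by
    rintro a ⟨h1, h2⟩
    refine ⟨h1.inv, ?_⟩
    rw [inv_smul_eq_iff, h2]

theorem mem_autHi {n : ℕ} {X : Set (Finset GolayPt)} {h : Equiv.Perm GolayPt} :
    h ∈ autHi n X ↔ FixHi n h ∧ h • X = X := Iff.rfl

universe u

section
variable {α : Type u} [Fintype α] [DecidableEq α] {n : ℕ}

/-- Extending a permutation by the identity. -/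
def extH (f : α ≃ ↥(Pn n)) : Equiv.Perm α →* Equiv.Perm GolayPt := Equiv.Perm.extendDomainHom f

theorem extH_inj (f : α ≃ ↥(Pn n)) : Function.Injective (extH f) := Equiv.Perm.extendDomainHom_injective f

theorem extH_embP (f : α ≃ ↥(Pn n)) (g : Equiv.Perm α) (a : α) : extH f g (embP f a) = embP f (g a) :=
  Equiv.Perm.extendDomain_apply_image g f a

theorem extH_fix (f : α ≃ ↥(Pn n)) (g : Equiv.Perm α) : FixHi n (extH f g) := by
  intro q hq
  refine Equiv.Perm.extendDomain_apply_not_subtype g f ?_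
  intro h
  have := mem_Pn.mp h
  omega

theorem extH_smul_map (f : α ≃ ↥(Pn n)) (g : Equiv.Perm α) (b : Finset α) :
    extH f g • b.map (embP f) = (g • b).map (embP f) := by
  ext q
  simp only [Finset.mem_map, Finset.mem_smul_finset]
  constructor
  · rintro ⟨_, ⟨a, ha, rfl⟩, rfl⟩
    exact ⟨g a, ⟨a, ha, rfl⟩, (extH_embP f g a).symm⟩
  · rintro ⟨_, ⟨a, ha, rfl⟩, rfl⟩
    exact ⟨_, ⟨a, ha, rfl⟩, extH_embP f g a⟩

theorem exists_map_eq (f : α ≃ ↥(Pn n)) {x : Finset GolayPt} (hx : x ⊆ Pn n) :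
    ∃ b : Finset α, b.map (embP f) = x := by
  refine ⟨Finset.univ.filter fun a => embP f a ∈ x, ?_⟩
  ext q
  simp only [Finset.mem_map, Finset.mem_filter, Finset.mem_univ, true_and]
  constructor
  · rintro ⟨a, ha, rfl⟩
    exact ha
  · intro hq
    refine ⟨f.symm ⟨q, hx hq⟩, ?_, ?_⟩
    · simpa [embP_apply] using hq
    · simp [embP_apply]

variable {B : Set (Finset α)} {X : Set (Finset GolayPt)}

theorem extH_smul_sub (f : α ≃ ↥(Pn n)) (hf : ∀ b : Finset α, b ∈ B ↔ b.map (embP f) ∈ X)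
    (hX : ∀ x ∈ X, x ⊆ Pn n) {g : Equiv.Perm α} (hg : g ∈ setSystemAut B) : ∀ x ∈ X, extH f g • x ∈ X := by
  intro x hx
  obtain ⟨b, rfl⟩ := exists_map_eq f (hX x hx)
  rw [extH_smul_map, ← hf]
  have h1 : g • B = B := hg
  rw [← h1]
  exact Set.smul_mem_smul_set ((hf b).mpr hx)

theorem map_extH (f : α ≃ ↥(Pn n)) (hf : ∀ b : Finset α, b ∈ B ↔ b.map (embP f) ∈ X)
    (hX : ∀ x ∈ X, x ⊆ Pn n) : (setSystemAut B).map (extH f) = autHi n X := by
  ext h
  simp only [Subgroup.mem_map]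
  constructor
  · rintro ⟨g, hg, rfl⟩
    refine ⟨extH_fix f g, ?_⟩
    apply Set.Subset.antisymm
    · rintro _ ⟨x, hx, rfl⟩
      exact extH_smul_sub f hf hX hg x hx
    · intro x hx
      refine Set.mem_smul_set.mpr ⟨(extH f g)⁻¹ • x, ?_, smul_inv_smul _ _⟩
      have := extH_smul_sub f hf hX (inv_mem hg) x hx
      rwa [map_inv] at this
  · rintro ⟨h1, h2⟩
    have hiff : ∀ x, h x ∈ Pn n ↔ x ∈ Pn n := by
      intro x
      refine ⟨fun hh => ?_, fun hh => h1.mem hh⟩
      have := h1.inv.mem hh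
      simpa using this
    let g : Equiv.Perm α := (f.trans (h.subtypePerm hiff)).trans f.symm
    have hg1 : ∀ a, embP f (g a) = h (embP f a) := by
      intro a
      simp [g, embP_apply]
    have hg2 : extH f g = h := by
      ext q
      by_cases hq : q ∈ Pn n
      · have h3 : q = embP f (f.symm ⟨q, hq⟩) := by simp [embP_apply]
        rw [h3, extH_embP, hg1]
      · have h4 : n ≤ idx q := by
          by_contra h5
          exact hq (mem_Pn.mpr (by omega))
        rw [extH_fix f g q h4, h1 q h4]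
    have hsm : ∀ b : Finset α, h • b.map (embP f) = (g • b).map (embP f) := by
      intro b
      rw [← hg2, extH_smul_map]
    refine ⟨g, ?_, hg2⟩
    have hsub : ∀ (k : Equiv.Perm GolayPt) (l : Equiv.Perm α),
        (∀ b : Finset α, k • b.map (embP f) = (l • b).map (embP f)) → k • X = X → ∀ b ∈ B, l • b ∈ B := by
      intro k l hkl hk b hb
      rw [hf, ← hkl]
      have h7 := Set.smul_mem_smul_set (a := k) ((hf b).mp hb)
      rwa [hk] at h7
    have h5 : ∀ b : Finset α, h⁻¹ • b.map (embP f) = (g⁻¹ • b).map (embP f) := by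
      intro b
      rw [← hg2, ← map_inv, extH_smul_map]
    have h6 : h⁻¹ • X = X := by
      rw [inv_smul_eq_iff, h2]
    change g • B = B
    apply Set.Subset.antisymm
    · rintro _ ⟨b, hb, rfl⟩
      exact hsub h g hsm h2 b hb
    · intro b hb
      exact Set.mem_smul_set.mpr ⟨g⁻¹ • b, hsub h⁻¹ g⁻¹ h5 h6 b hb, smul_inv_smul _ _⟩

/-- The automorphism group as a subgroup of the permutations of the points. -/
noncomputable def autEquiv (f : α ≃ ↥(Pn n)) (hf : ∀ b : Finset α, b ∈ B ↔ b.map (embP f) ∈ X)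
    (hX : ∀ x ∈ X, x ⊆ Pn n) : setSystemAut B ≃* autHi n X :=
  ((setSystemAut B).equivMapOfInjective (extH f) (extH_inj f)).trans
    (MulEquiv.subgroupCongr (map_extH f hf hX))

theorem autEquiv_apply (f : α ≃ ↥(Pn n)) (hf : ∀ b : Finset α, b ∈ B ↔ b.map (embP f) ∈ X)
    (hX : ∀ x ∈ X, x ⊆ Pn n) (g : setSystemAut B) : ((autEquiv f hf hX g : autHi n X) : Equiv.Perm GolayPt) = extH f g := rfl

/-- Multiple transitivity from the group on the points. -/
theorem multi_of_hi (f : α ≃ ↥(Pn n)) (hf : ∀ b : Finset α, b ∈ B ↔ b.map (embP f) ∈ X)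
    (hX : ∀ x ∈ X, x ⊆ Pn n) {m : ℕ}
    (h : ∀ x y : Fin m ↪ GolayPt, (∀ i, x i ∈ Pn n) → (∀ i, y i ∈ Pn n) →
      ∃ k ∈ autHi n X, ∀ i, k (x i) = y i) :
    MulAction.IsMultiplyPretransitive (setSystemAut B) α m := by
  refine ⟨fun x y => ?_⟩
  obtain ⟨k, hk, hky⟩ := h (x.trans (embP f)) (y.trans (embP f)) (fun i => embP_mem f _) (fun i => embP_mem f _)
  rw [← map_extH f hf hX] at hk
  obtain ⟨g, hg, rfl⟩ := Subgroup.mem_map.mp hk
  refine ⟨⟨g, hg⟩, ?_⟩
  ext i
  apply (embP f).injective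
  have h1 := hky i
  simp only [Function.Embedding.trans_apply] at h1
  rw [extH_embP] at h1
  simpa using h1

/-- Trivial stabilisers of tuples from the group on the points. -/
theorem sharp_of_hi (f : α ≃ ↥(Pn n)) (hf : ∀ b : Finset α, b ∈ B ↔ b.map (embP f) ∈ X)
    (hX : ∀ x ∈ X, x ⊆ Pn n) {m : ℕ}
    (h : ∀ x : Fin m ↪ GolayPt, (∀ i, x i ∈ Pn n) → ∀ k ∈ autHi n X, (∀ i, k (x i) = x i) → k = 1)
    (x : Fin m ↪ α) : MulAction.stabilizer (setSystemAut B) x = ⊥ := by
  rw [eq_bot_iff]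
  rintro ⟨g, hg⟩ hgx
  have hk : extH f g ∈ autHi n X := by
    rw [← map_extH f hf hX]
    exact Subgroup.mem_map_of_mem _ hg
  have h1 := h (x.trans (embP f)) (fun i => embP_mem f _) _ hk (fun i => by
    simp only [Function.Embedding.trans_apply]
    rw [extH_embP]
    have h2 : (⟨g, hg⟩ : setSystemAut B) • x = x := hgx
    have h3 := congrArg (fun z : Fin m ↪ α => z i) h2
    exact congrArg (embP f) h3)
  have h4 : g = 1 := extH_inj f (by rw [h1, map_one])
  rw [Subgroup.mem_bot]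
  exact Subtype.ext h4

end

end CfsgLib.StCert
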