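/-
Exact lists of extensions: the search with all branches ending at listed systems.
-/
import Cfsg.Agent.Lib.StCert.Fast

set_option autoImplicit false
set_option maxRecDepth 100000

namespace CfsgLib.StCert

open Cfsg CfsgLib.Golay
open scoped Pointwise

/-- Two lists with the same members. -/
def sameL (A L : List ℕ) : Bool := A.all (fun a => inL a L) && L.all (fun a => inL a A)

/-- The run of a certificate, with the final systems among an allowed list. -/
def runE (t k n : ℕ) (allowed : List (List ℕ)) : SC → Bool → List ℕ → List ℕ → Bool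
  | .leaf _, true, L, _ => allowed.any (fun A => sameL A L)
  | .pick u br, true, L, _ =>
    Nat.beq (pop u) t && Nat.blt u (2 ^ n) && L.all (fun l => !Nat.beq (Nat.land l u) u) &&
      runE t k n allowed br false L (cands2 t k n u L)
  | .dead, false, _, P => P.isEmpty
  | .expl c sub rest, false, L, P =>
    runE t k n allowed sub true (c :: L) [] && runE t k n allowed rest false L (eraseN c P)
  | _, _, _, _ => false

section
variable {t k n : ℕ} {allowed : List (List ℕ)}

theorem runE_sound (hn : n ≤ 24) (htk : t ≤ k)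
    (hcov : ∀ A ∈ allowed, ∀ s, s ⊆ Pn n → s.card = t → ∃ m ∈ A, s ⊆ fs m) (c : SC) :
    (∀ L P, runE t k n allowed c true L P = true → ∀ B, St t k n B → (∀ l ∈ L, fs l ∈ B) →
      ∃ A ∈ allowed, B = setOf A) ∧
    (∀ L P, runE t k n allowed c false L P = true → ∀ B, St t k n B → (∀ l ∈ L, fs l ∈ B) →
      ∀ a ∈ P, fs a ∈ B → ∃ A ∈ allowed, B = setOf A) := by
  induction c with
  | leaf π =>
    refine ⟨fun L P h B hB hL => ?_, fun L P h => ?_⟩
    · simp only [runE, List.any_eq_true, sameL, Bool.and_eq_true, List.all_eq_true, inL_iff] at h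
      obtain ⟨A, hA, h1, h2⟩ := h
      refine ⟨A, hA, ?_⟩
      ext b
      constructor
      · intro hb
        obtain ⟨hbc, hbP⟩ := hB.blocks b hb
        obtain ⟨s, hs, hsc⟩ := Finset.exists_subset_card_eq (n := t) (s := b) (by rw [hbc]; exact htk)
        obtain ⟨m, hm, hsm⟩ := hcov A hA s (fun q hq => hbP (hs hq)) hsc
        refine ⟨m, hm, ?_⟩
        obtain ⟨_, _, hU⟩ := hB.cover s (fun q hq => hbP (hs hq)) hsc
        rw [hU b ⟨hb, hs⟩, hU _ ⟨hL m (h1 m hm), hsm⟩]
      · rintro ⟨m, hm, rfl⟩
        exact hL m (h1 m hm)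
    · simp [runE] at h
  | dead =>
    refine ⟨fun L P h => ?_, fun L P h B _ _ a ha => ?_⟩
    · simp [runE] at h
    · simp only [runE, List.isEmpty_iff] at h
      subst h
      simp at ha
  | pick u br ih =>
    refine ⟨fun L P h => ?_, fun L P h => ?_⟩
    · simp only [runE, Bool.and_eq_true, Nat.beq_eq, List.all_eq_true, Bool.not_eq_true'] at h
      obtain ⟨⟨⟨hu, hult⟩, hunc⟩, hbr⟩ := h
      intro B hB hL
      have hult' : u < 2 ^ n := by simpa [Nat.blt] using hult
      obtain ⟨b, ⟨hb1, hb2⟩, _⟩ : ∃! b, b ∈ B ∧ fs u ⊆ b :=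
        hB.cover (fs u) (fs_sub_Pn hn hult') (by rw [card_fs]; exact hu)
      have hbe : fs (mask b) = b := fs_mask b
      have hulow : u < 2 ^ 24 := lt_of_lt_of_le hult' (Nat.pow_le_pow_right (by norm_num) hn)
      have hunc' : ∀ l ∈ L, ¬ fs u ⊆ fs l := by
        intro l hl h5
        have h1 := hunc l hl
        have h6 : fs (Nat.land l u) = fs u := by
          have : fs (Nat.land l u) = fs l ∩ fs u := fs_land l u
          rw [this]
          exact Finset.inter_eq_right.mpr h5
        have h7 : Nat.land l u < 2 ^ 24 := lt_of_le_of_lt Nat.and_le_right hulow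
        have h2 := eq_of_fs_eq h7 hulow h6
        rw [h2] at h1
        simp at h1
      exact ih.2 L _ hbr B hB hL _ (mask_mem_cands2 hn hB hu hult' hL hunc' hb1 hb2)
        (by rw [hbe]; exact hb1)
    · simp [runE] at h
  | expl c sub rest ih1 ih2 =>
    refine ⟨fun L P h => ?_, fun L P h B hB hL a ha hab => ?_⟩
    · simp [runE] at h
    · simp only [runE, Bool.and_eq_true] at h
      obtain ⟨h1, h2⟩ := h
      by_cases hac : a = c
      · subst hac
        refine ih1.1 _ _ h1 B hB (fun l hl => ?_)
        rcases List.mem_cons.mp hl with rfl | hl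
        · exact hab
        · exact hL l hl
      · exact ih2.2 L _ h2 B hB hL a (mem_of_mem_eraseN ha hac) hab
  | sym c π c' rest ih =>
    refine ⟨fun L P h => ?_, fun L P h => ?_⟩ <;> simp [runE] at h

end

/-- The conclusion of a run. -/
theorem exts_of_run {t k n : ℕ} {allowed : List (List ℕ)} {L0 : List ℕ} {cert : SC} (hn : n ≤ 24) (htk : t ≤ k)
    (hcov : ∀ A ∈ allowed, ∀ s, s ⊆ Pn n → s.card = t → ∃ m ∈ A, s ⊆ fs m)
    (hrun : runE t k n allowed cert true L0 [] = true) {B : Set (Finset GolayPt)} (hB : St t k n B)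
    (hL : ∀ l ∈ L0, fs l ∈ B) : ∃ A ∈ allowed, B = setOf A :=
  (runE_sound hn htk hcov cert).1 L0 [] hrun B hB hL

end CfsgLib.StCert
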