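/-
Automorphisms of a derived system and of its extensions.
-/
import Cfsg.Agent.Lib.StCert.Aut
import Cfsg.Agent.Lib.StCert.UniqExt

set_option autoImplicit false
set_option maxRecDepth 100000

namespace CfsgLib.StCert

open Cfsg CfsgLib.Golay
open scoped Pointwise

theorem smul_insert_fix {n : ℕ} {h : Equiv.Perm GolayPt} (hp : h (pt n) = pt n) (d : Finset GolayPt) :
    h • insert (pt n) d = insert (pt n) (h • d) := by
  rw [Finset.smul_finset_insert]
  congr 1

theorem FixHi.pt_eq {n : ℕ} {h : Equiv.Perm GolayPt} (hh : FixHi n h) (hn : n < 24) : h (pt n) = pt n :=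
  hh _ (by rw [idx_pt hn])

theorem der_smul_sub {n : ℕ} {X : Set (Finset GolayPt)} {k : Equiv.Perm GolayPt} (hk : FixHi n k) (hn : n < 24)
    (hX : k • X = X) : ∀ b ∈ Der n X, k • b ∈ Der n X := by
  rintro b ⟨h1, h2⟩
  refine ⟨hk.smul_sub h1, ?_⟩
  rw [← smul_insert_fix (hk.pt_eq hn), ← hX]
  exact Set.smul_mem_smul_set h2

/-- An automorphism fixing the point acts on the derived system. -/
theorem aut_der {n : ℕ} (hn : n < 24) {X : Set (Finset GolayPt)} {h : Equiv.Perm GolayPt}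
    (hh : h ∈ autHi (n + 1) X) (hp : h (pt n) = pt n) : h ∈ autHi n (Der n X) := by
  obtain ⟨h1, h2⟩ := hh
  have hfix : FixHi n h := by
    intro q hq
    by_cases h3 : idx q = n
    · rw [← pt_idx q, h3, hp]
    · exact h1 q (by omega)
  refine ⟨hfix, ?_⟩
  apply Set.Subset.antisymm
  · rintro _ ⟨b, hb, rfl⟩
    exact der_smul_sub hfix hn h2 b hb
  · intro b hb
    refine Set.mem_smul_set.mpr ⟨h⁻¹ • b, der_smul_sub hfix.inv hn ?_ b hb, smul_inv_smul _ _⟩
    rw [inv_smul_eq_iff, h2]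

/-- An automorphism of the derived system extends, when there is just one extension. -/
theorem smul_top_of_aut {t k n : ℕ} {base top : List ℕ} (hn : n < 24)
    (hder : Der n (setOf top) = setOf base) (hSt : St (t + 1) (k + 1) (n + 1) (setOf top))
    {g : Equiv.Perm GolayPt} (hg : g ∈ autHi n (setOf base)) :
    St (t + 1) (k + 1) (n + 1) (g • setOf top) ∧ ∀ l ∈ base.map (addBit n), fs l ∈ g • setOf top := by
  obtain ⟨h1, h2⟩ := hg
  have hg' : FixHi (n + 1) g := fun q hq => h1 q (by omega)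
  refine ⟨hSt.smul hg', ?_⟩
  intro l hl
  obtain ⟨m, hm, rfl⟩ := List.mem_map.mp hl
  rw [fs_addBit hn]
  have h3 : g⁻¹ • fs m ∈ setOf base := by
    have h4 : g⁻¹ • setOf base = setOf base := by
      rw [inv_smul_eq_iff, h2]
    rw [← h4]
    exact Set.smul_mem_smul_set ⟨m, hm, rfl⟩
  rw [← hder] at h3
  refine Set.mem_smul_set.mpr ⟨insert (pt n) (g⁻¹ • fs m), h3.2, ?_⟩
  rw [smul_insert_fix (h1.pt_eq hn), smul_inv_smul]

theorem aut_ext {t k n : ℕ} {base top : List ℕ} (hn : n < 24)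
    (hder : Der n (setOf top) = setOf base) (hSt : St (t + 1) (k + 1) (n + 1) (setOf top))
    (hU : ∀ B, St (t + 1) (k + 1) (n + 1) B → (∀ l ∈ base.map (addBit n), fs l ∈ B) → B = setOf top)
    {g : Equiv.Perm GolayPt} (hg : g ∈ autHi n (setOf base)) :
    g ∈ autHi (n + 1) (setOf top) ∧ g (pt n) = pt n := by
  obtain ⟨h1, h2⟩ := smul_top_of_aut hn hder hSt hg
  refine ⟨⟨fun q hq => hg.1 q (by omega), hU _ h1 h2⟩, hg.1.pt_eq hn⟩

/-- The description of the automorphism group of a derived system. -/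
theorem mem_aut_der_iff {t k n : ℕ} {base top : List ℕ} (hn : n < 24)
    (hder : Der n (setOf top) = setOf base) (hSt : St (t + 1) (k + 1) (n + 1) (setOf top))
    (hU : ∀ B, St (t + 1) (k + 1) (n + 1) B → (∀ l ∈ base.map (addBit n), fs l ∈ B) → B = setOf top)
    {g : Equiv.Perm GolayPt} :
    g ∈ autHi n (setOf base) ↔ g ∈ autHi (n + 1) (setOf top) ∧ g (pt n) = pt n := by
  constructor
  · exact aut_ext hn hder hSt hU
  · rintro ⟨h1, h2⟩
    rw [← hder]
    exact aut_der hn h1 h2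

/-- A unique extension, from a run. -/
theorem uniq_of_run {t k n : ℕ} {top L0 : List ℕ} {cert : SC} (hn : n ≤ 24) (htk : t ≤ k)
    (hcov : ∀ s, s ⊆ Pn n → s.card = t → ∃ m ∈ top, s ⊆ fs m)
    (hrun : runE t k n [top] cert true L0 [] = true) :
    ∀ B, St t k n B → (∀ l ∈ L0, fs l ∈ B) → B = setOf top := by
  intro B hB hL
  obtain ⟨A, hA, hAe⟩ := exts_of_run hn htk (fun A hA => by
    rw [List.mem_singleton] at hA
    rw [hA]
    exact hcov) hrun hB hL
  rw [List.mem_singleton] at hA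
  rw [hAe, hA]

/-- Adjoining a point to a tuple. -/
def consTuple {m : ℕ} (x : Fin m ↪ GolayPt) (p : GolayPt) (hp : ∀ i, x i ≠ p) : Fin (m + 1) ↪ GolayPt :=
  ⟨Fin.cons p x, Fin.cons_injective_iff.mpr ⟨by
    rintro ⟨i, hi⟩
    exact hp i hi, x.injective⟩⟩

@[simp] theorem consTuple_zero {m : ℕ} (x : Fin m ↪ GolayPt) (p : GolayPt) (hp : ∀ i, x i ≠ p) :
    consTuple x p hp 0 = p := rfl

@[simp] theorem consTuple_succ {m : ℕ} (x : Fin m ↪ GolayPt) (p : GolayPt) (hp : ∀ i, x i ≠ p) (i : Fin m) :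
    consTuple x p hp i.succ = x i := rfl

theorem ne_pt_of_mem {n : ℕ} (hn : n < 24) {q : GolayPt} (hq : q ∈ Pn n) : q ≠ pt n := by
  rintro rfl
  have := mem_Pn.mp hq
  rw [idx_pt hn] at this
  omega

end CfsgLib.StCert
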