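/-
Automorphism groups of the Steiner systems on 12 and 11 points.
-/
import Cfsg.Agent.Lib.StCert.M12
import Cfsg.Agent.Lib.StCert.AutChain
import Cfsg.Prelude.Def_Sporadic
import Cfsg.Agent.S0385
import Cfsg.Agent.S0387
import Cfsg.Agent.Lib.Golay.SimpleUse

set_option autoImplicit false
set_option maxRecDepth 100000

namespace CfsgLib.StCert.M12

open Cfsg CfsgLib.Golay CfsgLib.StCert
open scoped Pointwise

/-- Consistency of a partial map with a list of blocks. -/
def consOK (Bl : List ℕ) (m : List (ℕ × ℕ)) : Bool :=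
  Bl.all fun l => Bl.any fun l' => m.all fun ab => !Nat.testBit l ab.1 || Nat.testBit l' ab.2

/-- Search for partial maps. -/
def rigS (n : ℕ) (Bl : List ℕ) : List ℕ → List (ℕ × ℕ) → Bool
  | [], m => m.all fun ab => Nat.beq ab.1 ab.2
  | y :: ys, m => m.all (fun ab => !Nat.beq ab.1 y) && (List.range n).all fun z =>
      m.any (fun ab => Nat.beq ab.2 z) || !consOK Bl ((y, z) :: m) || rigS n Bl ys ((y, z) :: m)

theorem pt_inj {a b : ℕ} (ha : a < 24) (hb : b < 24) (h : pt a = pt b) : a = b := by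
  have := congrArg idx h
  rwa [idx_pt ha, idx_pt hb] at this

theorem consOK_of_aut {n : ℕ} {Bl : List ℕ} {h : Equiv.Perm GolayPt} (hh : h • setOf Bl = setOf Bl)
    {m : List (ℕ × ℕ)} (hm : ∀ ab ∈ m, ab.1 < 24 ∧ ab.2 < 24 ∧ h (pt ab.1) = pt ab.2) : consOK Bl m = true := by
  simp only [consOK, List.all_eq_true, List.any_eq_true, Bool.or_eq_true, Bool.not_eq_true']
  intro l hl
  have h1 : h • fs l ∈ setOf Bl := by
    rw [← hh]
    exact Set.smul_mem_smul_set ⟨l, hl, rfl⟩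
  obtain ⟨l', hl', he⟩ := h1
  refine ⟨l', hl', fun ab hab => ?_⟩
  obtain ⟨h2, h3, h4⟩ := hm ab hab
  by_cases h5 : Nat.testBit l ab.1 = true
  · right
    have h6 : pt ab.1 ∈ fs l := (mem_fs_pt h2).mpr h5
    have h7 : h (pt ab.1) ∈ h • fs l := Finset.mem_smul_finset.mpr ⟨_, h6, rfl⟩
    rw [h4, he] at h7
    exact (mem_fs_pt h3).mp h7
  · left
    simpa using h5

theorem rigS_sound {n : ℕ} (hn : n ≤ 24) {Bl : List ℕ} {h : Equiv.Perm GolayPt} (hfix : FixHi n h)
    (hh : h • setOf Bl = setOf Bl) (ys : List ℕ) (m : List (ℕ × ℕ)) (hrun : rigS n Bl ys m = true)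
    (hm : ∀ ab ∈ m, ab.1 < 24 ∧ ab.2 < 24 ∧ h (pt ab.1) = pt ab.2) (hys : ∀ y ∈ ys, y < n) :
    (∀ ab ∈ m, ab.1 = ab.2) ∧ ∀ y ∈ ys, h (pt y) = pt y := by
  induction ys generalizing m with
  | nil =>
    simp only [rigS, List.all_eq_true, Nat.beq_eq] at hrun
    exact ⟨hrun, by simp⟩
  | cons y ys ih =>
    simp only [rigS, Bool.and_eq_true, List.all_eq_true, Bool.not_eq_true', Bool.or_eq_true, List.any_eq_true,
      List.mem_range, Nat.beq_eq] at hrun
    obtain ⟨h1, h2⟩ := hrun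
    have hy : y < n := hys y (by simp)
    have hy24 : y < 24 := by omega
    have hmem : h (pt y) ∈ Pn n := hfix.mem (mem_Pn.mpr (by rw [idx_pt hy24]; exact hy))
    set z := idx (h (pt y)) with hz
    have hzn : z < n := mem_Pn.mp hmem
    have hz24 : z < 24 := by omega
    have hzpt : h (pt y) = pt z := by rw [hz, pt_idx]
    have hm' : ∀ ab ∈ (y, z) :: m, ab.1 < 24 ∧ ab.2 < 24 ∧ h (pt ab.1) = pt ab.2 := by
      intro ab hab
      rcases List.mem_cons.mp hab with rfl | hab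
      · exact ⟨hy24, hz24, hzpt⟩
      · exact hm ab hab
    rcases h2 z hzn with (⟨ab, hab, hab2⟩ | h3) | h3
    · exfalso
      obtain ⟨h4, h5, h6⟩ := hm ab hab
      rw [hab2, ← hzpt] at h6
      have h7 := h.injective h6
      have h8 := pt_inj h4 hy24 h7
      have h9 := h1 ab hab
      rw [h8] at h9
      simp at h9
    · exfalso
      rw [consOK_of_aut (n := n) hh hm'] at h3
      simp at h3
    · obtain ⟨h4, h5⟩ := ih _ h3 hm' (fun y' hy' => hys y' (by simp [hy']))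
      have hyz : y = z := h4 (y, z) (by simp)
      refine ⟨fun ab hab => h4 ab (List.mem_cons_of_mem _ hab), fun y' hy' => ?_⟩
      rcases List.mem_cons.mp hy' with rfl | hy'
      · rw [hzpt, ← hyz]
      · exact h5 y' hy'

theorem rig_B12 : rigS 12 B12 [5, 6, 7, 8, 9, 10, 11] [(0, 0), (1, 1), (2, 2), (3, 3), (4, 4)] = true := by
  decide +kernel

/-- An automorphism fixing the first five points is trivial. -/
theorem rigid12 {k : Equiv.Perm GolayPt} (hk : k ∈ autHi 12 (setOf B12))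
    (h0 : ∀ i, i < 5 → k (pt i) = pt i) : k = 1 := by
  obtain ⟨h1, h2⟩ := rigS_sound (n := 12) (by norm_num) hk.1 hk.2 _ _ rig_B12 (by
    intro ab hab
    simp only [List.mem_cons, List.not_mem_nil, or_false] at hab
    rcases hab with rfl | rfl | rfl | rfl | rfl <;> exact ⟨by norm_num, by norm_num, h0 _ (by norm_num)⟩) (by
    intro y hy
    simp only [List.mem_cons, List.not_mem_nil, or_false] at hy
    omega)
  ext1 q
  by_cases hq : idx q < 12
  · have h3 : idx q < 5 ∨ idx q ∈ [5, 6, 7, 8, 9, 10, 11] := by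
      simp only [List.mem_cons, List.not_mem_nil, or_false]
      omega
    rcases h3 with h3 | h3
    · have := h0 _ h3
      rwa [pt_idx] at this
    · have := h2 _ h3
      rwa [pt_idx] at this
  · exact hk.1 q (by omega)

/-- The set of points of the fixed dodecad. -/
abbrev HX : Set (Finset ↥Dd0) :=
  {h : Finset {p : GolayPt // p ∈ Dd0} | ∃ o ∈ octads, (o ∩ Dd0).card = 6 ∧ h = Finset.subtype (fun p => p ∈ Dd0) o}

theorem HX_steiner : IsSteinerSystem 5 6 HX := Cfsg.Agent.S0385.result Dd0 Dd0_mem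

theorem card_Dd0 : Fintype.card ↥Dd0 = 12 := by
  rw [Fintype.card_coe]
  exact Dd0_mem.2

theorem stab_mem_iff {g : Equiv.Perm GolayPt} (hg : g ∈ stabS Dd0) (x : GolayPt) : g x ∈ Dd0 ↔ x ∈ Dd0 := by
  have h1 := (mem_stabS.mp hg).2
  constructor
  · intro h
    rw [← h1] at h
    obtain ⟨y, hy, hye⟩ := Finset.mem_smul_finset.mp h
    rw [← g.injective hye]
    exact hy
  · intro h
    rw [← h1]
    exact Finset.mem_smul_finset.mpr ⟨x, h, rfl⟩

/-- The restriction to the dodecad. -/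
noncomputable def resH : stabS Dd0 →* Equiv.Perm ↥Dd0 where
  toFun g := (g : Equiv.Perm GolayPt).subtypePerm (stab_mem_iff g.2)
  map_one' := by
    ext x
    rfl
  map_mul' a b := by
    ext x
    rfl

theorem resH_apply (g : stabS Dd0) (x : ↥Dd0) : ((resH g x : ↥Dd0) : GolayPt) = (g : Equiv.Perm GolayPt) x := rfl

theorem octads_smul' {g : Equiv.Perm GolayPt} (hg : g ∈ M24) {o : Finset GolayPt} (ho : o ∈ octads) : g • o ∈ octads :=
  M24_smul_octad hg ho

theorem resH_smul (g : stabS Dd0) (o : Finset GolayPt) :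
    resH g • Finset.subtype (fun p => p ∈ Dd0) o = Finset.subtype (fun p => p ∈ Dd0) ((g : Equiv.Perm GolayPt) • o) := by
  ext x
  simp only [Finset.mem_smul_finset, Finset.mem_subtype]
  constructor
  · rintro ⟨y, hy, rfl⟩
    exact ⟨y, hy, rfl⟩
  · rintro ⟨y, hy, hye⟩
    have hyd : y ∈ Dd0 := by
      have hye' : (g : Equiv.Perm GolayPt) y = x := hye
      rw [← stab_mem_iff g.2, hye']
      exact x.2
    refine ⟨⟨y, hyd⟩, hy, ?_⟩
    apply Subtype.ext
    exact hye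

theorem resH_sub (g : stabS Dd0) : ∀ b ∈ HX, resH g • b ∈ HX := by
  rintro _ ⟨o, ho, h6, rfl⟩
  refine ⟨(g : Equiv.Perm GolayPt) • o, octads_smul' (mem_stabS.mp g.2).1 ho, ?_, resH_smul g o⟩
  have h1 := (mem_stabS.mp g.2).2
  have h2 : (g : Equiv.Perm GolayPt) • o ∩ Dd0 = (g : Equiv.Perm GolayPt) • (o ∩ Dd0) := by
    rw [Finset.smul_finset_inter, h1]
  rw [h2, Finset.card_smul_finset, h6]

theorem resH_mem (g : stabS Dd0) : resH g ∈ setSystemAut HX := by
  change resH g • HX = HX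
  apply Set.Subset.antisymm
  · rintro _ ⟨b, hb, rfl⟩
    exact resH_sub g b hb
  · intro b hb
    refine Set.mem_smul_set.mpr ⟨(resH g)⁻¹ • b, ?_, smul_inv_smul _ _⟩
    rw [← map_inv]
    exact resH_sub g⁻¹ b hb

/-- The system on the dodecad in standard form. -/
theorem exists_std : ∃ f : ↥Dd0 ≃ ↥(Pn 12), ∀ b : Finset ↥Dd0, b ∈ HX ↔ b.map (embP f) ∈ setOf B12 :=
  std_of_T (n := 12) (by norm_num) T12 card_Dd0 HX_steiner

theorem hX12 : ∀ x ∈ setOf B12, x ⊆ Pn 12 := fun x hx => (St_B12.blocks x hx).2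

section
variable (f : ↥Dd0 ≃ ↥(Pn 12)) (hf : ∀ b : Finset ↥Dd0, b ∈ HX ↔ b.map (embP f) ∈ setOf B12)
include hf

theorem psi_mem (g : stabS Dd0) : extH f (resH g) ∈ autHi 12 (setOf B12) := by
  rw [← map_extH f hf hX12]
  exact Subgroup.mem_map_of_mem _ (resH_mem g)

omit hf in
/-- The tuples pulled back to the dodecad. -/
theorem pull_tuple (f : ↥Dd0 ≃ ↥(Pn 12)) (z : Fin 5 ↪ GolayPt) (hz : ∀ i, z i ∈ Pn 12) :
    ∃ w : Fin 5 ↪ GolayPt, (∀ i, w i ∈ Dd0) ∧ ∀ i, ∃ a : ↥Dd0, (a : GolayPt) = w i ∧ embP f a = z i := by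
  refine ⟨⟨fun i => ((f.symm ⟨z i, hz i⟩ : ↥Dd0) : GolayPt), ?_⟩, fun i => (f.symm ⟨z i, hz i⟩).2, fun i => ⟨f.symm ⟨z i, hz i⟩, rfl, ?_⟩⟩
  · intro i j hij
    have h1 : f.symm ⟨z i, hz i⟩ = f.symm ⟨z j, hz j⟩ := Subtype.ext hij
    have h2 := f.symm.injective h1
    exact z.injective (congrArg Subtype.val h2)
  · simp [embP_apply]

theorem multi12 (x y : Fin 5 ↪ GolayPt) (hx : ∀ i, x i ∈ Pn 12) (hy : ∀ i, y i ∈ Pn 12) :
    ∃ g : stabS Dd0, ∀ i, extH f (resH g) (x i) = y i := by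
  obtain ⟨wx, hwx, hwx'⟩ := pull_tuple f x hx
  obtain ⟨wy, hwy, hwy'⟩ := pull_tuple f y hy
  obtain ⟨⟨g, hg, hgi⟩, _⟩ := dod_sharp Dd0_mem wx wy hwx hwy
  refine ⟨⟨g, hg⟩, fun i => ?_⟩
  obtain ⟨a, ha, hae⟩ := hwx' i
  obtain ⟨b, hb, hbe⟩ := hwy' i
  rw [← hae, extH_embP, ← hbe]
  congr 1
  apply Subtype.ext
  rw [resH_apply, ha, hb]
  exact hgi i

omit hf in
theorem resH_inj : Function.Injective (fun g : stabS Dd0 => extH f (resH g)) := by
  intro a b hab
  have h1 : resH a = resH b := extH_inj f hab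
  obtain ⟨e⟩ : Nonempty (Fin 5 ↪ ↥Dd0) := Function.Embedding.nonempty_of_card_le (by rw [card_Dd0]; simp)
  let x : Fin 5 ↪ GolayPt := e.trans (Function.Embedding.subtype _)
  let y : Fin 5 ↪ GolayPt := x.trans (a : Equiv.Perm GolayPt).toEmbedding
  have hx : ∀ i, x i ∈ Dd0 := fun i => (e i).2
  have hy : ∀ i, y i ∈ Dd0 := fun i => (stab_mem_iff a.2 _).mpr (hx i)
  have h2 := (dod_sharp Dd0_mem x y hx hy).2 a a.2 b b.2 (fun i => rfl) (fun i => by
    have := congrArg (fun r : Equiv.Perm ↥Dd0 => ((r (e i) : ↥Dd0) : GolayPt)) h1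
    exact this.symm)
  exact Subtype.ext h2

theorem surj12 {k : Equiv.Perm GolayPt} (hk : k ∈ autHi 12 (setOf B12)) : ∃ g : stabS Dd0, extH f (resH g) = k := by
  let x0 : Fin 5 ↪ GolayPt := ⟨fun i => pt i.val, fun i j hij => Fin.ext (pt_inj (by omega) (by omega) hij)⟩
  have hx0 : ∀ i, x0 i ∈ Pn 12 := fun i => mem_Pn.mpr (by
    change idx (pt i.val) < 12
    rw [idx_pt (by omega)]
    omega)
  let y0 : Fin 5 ↪ GolayPt := x0.trans k.toEmbedding
  have hy0 : ∀ i, y0 i ∈ Pn 12 := fun i => hk.1.mem (hx0 i)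
  obtain ⟨g, hg⟩ := multi12 f hf x0 y0 hx0 hy0
  refine ⟨g, ?_⟩
  have h1 : (extH f (resH g))⁻¹ * k = 1 := by
    apply rigid12 (mul_mem (inv_mem (psi_mem f hf g)) hk)
    intro i hi
    rw [Equiv.Perm.mul_apply, Equiv.Perm.inv_eq_iff_eq]
    exact (hg ⟨i, hi⟩).symm
  have h2 : k = extH f (resH g) * ((extH f (resH g))⁻¹ * k) := by group
  rw [h2, h1, mul_one]

/-- The comparison with the stabiliser of the dodecad. -/
noncomputable def psiEquiv : stabS Dd0 ≃* autHi 12 (setOf B12) :=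
  MulEquiv.ofBijective
    ({ toFun := fun g => ⟨extH f (resH g), psi_mem f hf g⟩
       map_one' := Subtype.ext (by simp)
       map_mul' := fun a b => Subtype.ext (by simp) } : stabS Dd0 →* autHi 12 (setOf B12))
    ⟨fun a b hab => resH_inj f (congrArg Subtype.val hab), fun ⟨k, hk⟩ => by
      obtain ⟨g, hg⟩ := surj12 f hf hk
      exact ⟨g, Subtype.ext hg⟩⟩

theorem sharp12 (x : Fin 5 ↪ GolayPt) (hx : ∀ i, x i ∈ Pn 12) {k : Equiv.Perm GolayPt}
    (hk : k ∈ autHi 12 (setOf B12)) (hfix : ∀ i, k (x i) = x i) : k = 1 := by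
  obtain ⟨g, rfl⟩ := surj12 f hf hk
  obtain ⟨w, hw, hw'⟩ := pull_tuple f x hx
  have h1 := (dod_sharp Dd0_mem w w hw hw).2 g g.2 1 (one_mem _) (fun i => by
    obtain ⟨a, ha, hae⟩ := hw' i
    have h2 := hfix i
    rw [← hae, extH_embP] at h2
    have h3 := (embP f).injective h2
    rw [← ha, ← resH_apply, h3]) (fun i => rfl)
  have h4 : g = 1 := Subtype.ext h1
  rw [h4]
  simp

end

universe u
variable {α : Type u} [Fintype α] [DecidableEq α]

theorem aut12_result (hα : Fintype.card α = 12) {B : Set (Finset α)} (hB : IsSteinerSystem 5 6 B) :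
    IsM12 (setSystemAut B) ∧ MulAction.IsMultiplyPretransitive (setSystemAut B) α 5 ∧
      ∀ x : Fin 5 ↪ α, MulAction.stabilizer (setSystemAut B) x = ⊥ := by
  obtain ⟨f0, hf0⟩ := exists_std
  obtain ⟨f, hf⟩ := std_of_T (n := 12) (by norm_num) T12 hα hB
  let e : setSystemAut B ≃* stabS Dd0 := (autEquiv f hf hX12).trans (psiEquiv f0 hf0).symm
  haveI := simple_stabDd0
  refine ⟨⟨e.isSimpleGroup, ?_⟩, multi_of_hi f hf hX12 ?_, sharp_of_hi f hf hX12 ?_⟩
  · rw [Nat.card_congr e.toEquiv, card_stabS_Dd0]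
  · intro x y hx hy
    obtain ⟨g, hg⟩ := multi12 f0 hf0 x y hx hy
    exact ⟨_, psi_mem f0 hf0 g, hg⟩
  · intro x hx k hk hfix
    exact sharp12 f0 hf0 x hx hk hfix

theorem lt_B12 : (B12.all fun m => Nat.blt m (2 ^ 12)) = true := by decide +kernel

theorem der11 : Der 11 (setOf B12) = setOf D11 :=
  der_setOf (by norm_num) (fun m hm => by simpa [Nat.blt] using List.all_eq_true.mp lt_B12 m hm) (by decide +kernel)

theorem uniq12 : ∀ B, St 5 6 12 B → (∀ l ∈ D11.map (addBit 11), fs l ∈ B) → B = setOf B12 :=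
  uniq_of_run (by norm_num) (by norm_num) St_B12.cov (cert := c12) (by decide +kernel)

theorem mem_aut11 {g : Equiv.Perm GolayPt} :
    g ∈ autHi 11 (setOf D11) ↔ g ∈ autHi 12 (setOf B12) ∧ g (pt 11) = pt 11 :=
  mem_aut_der_iff (t := 4) (k := 5) (by norm_num) der11 St_B12 uniq12

theorem aut11_result (hα : Fintype.card α = 11) {B : Set (Finset α)} (hB : IsSteinerSystem 4 5 B) :
    IsM11 (setSystemAut B) ∧ MulAction.IsMultiplyPretransitive (setSystemAut B) α 4 ∧
      ∀ x : Fin 4 ↪ α, MulAction.stabilizer (setSystemAut B) x = ⊥ := by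
  obtain ⟨f0, hf0⟩ := exists_std
  obtain ⟨f, hf⟩ := std_of_T (n := 11) (by norm_num) T11 hα hB
  have hX : ∀ x ∈ setOf D11, x ⊆ Pn 11 := fun x hx => (St_D11.blocks x hx).2
  have hp12 : pt 11 ∈ Pn 12 := mem_Pn.mpr (by rw [idx_pt (by norm_num)]; norm_num)
  let p : ↥Dd0 := f0.symm ⟨pt 11, hp12⟩
  have hpe : embP f0 p = pt 11 := by simp [embP_apply, p]
  let T := MulAction.stabilizer M24 Dd0 ⊓ MulAction.stabilizer M24 (p : GolayPt)
  have hT : ∀ g : T, (((g : M24) : Equiv.Perm GolayPt)) ∈ stabS Dd0 := fun g => mem_stabS.mpr ⟨(g : M24).2, g.2.1⟩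
  have hmemT : ∀ g : T, extH f0 (resH ⟨_, hT g⟩) ∈ autHi 11 (setOf D11) := by
    intro g
    rw [mem_aut11]
    refine ⟨psi_mem f0 hf0 _, ?_⟩
    rw [← hpe, extH_embP]
    congr 1
    apply Subtype.ext
    rw [resH_apply]
    exact g.2.2
  let ι : T →* stabS Dd0 :=
    { toFun := fun g => ⟨_, hT g⟩
      map_one' := rfl
      map_mul' := fun _ _ => rfl }
  let ψ : T →* autHi 11 (setOf D11) :=
    { toFun := fun g => ⟨extH f0 (resH (ι g)), hmemT g⟩
      map_one' := Subtype.ext (by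
        change extH f0 (resH (ι 1)) = 1
        rw [map_one, map_one, map_one])
      map_mul' := fun a b => Subtype.ext (by
        change extH f0 (resH (ι (a * b))) = extH f0 (resH (ι a)) * extH f0 (resH (ι b))
        rw [map_mul, map_mul, map_mul]) }
  have hψ : Function.Bijective ψ := by
    constructor
    · intro a b hab
      have h1 := resH_inj f0 (congrArg Subtype.val hab)
      have h2 := congrArg Subtype.val h1
      exact Subtype.ext (Subtype.ext h2)
    · rintro ⟨k, hk⟩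
      obtain ⟨hk1, hk2⟩ := mem_aut11.mp hk
      obtain ⟨g, rfl⟩ := surj12 f0 hf0 hk1
      have hg := mem_stabS.mp g.2
      have hgp : (g : Equiv.Perm GolayPt) (p : GolayPt) = p := by
        rw [← hpe, extH_embP] at hk2
        have h3 := (embP f0).injective hk2
        rw [← resH_apply, h3]
      exact ⟨⟨⟨g, hg.1⟩, hg.2, hgp⟩, Subtype.ext rfl⟩
  let e : setSystemAut B ≃* T := (autEquiv f hf hX).trans (MulEquiv.ofBijective ψ hψ).symm
  haveI := simple_stab_dodecad_pt Dd0_mem p.2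
  have hcard : Nat.card T = 7920 := by
    have := Cfsg.Agent.S0387.result Dd0 Dd0_mem p p.2
    exact this
  have hne : ∀ (x : Fin 4 ↪ GolayPt), (∀ i, x i ∈ Pn 11) → ∀ i, x i ≠ pt 11 :=
    fun x hx i => ne_pt_of_mem (by norm_num) (hx i)
  have hcons : ∀ (x : Fin 4 ↪ GolayPt) (hx : ∀ i, x i ∈ Pn 11), ∀ i, consTuple x (pt 11) (hne x hx) i ∈ Pn 12 := by
    intro x hx i
    refine Fin.cases hp12 (fun j => ?_) i
    simp only [consTuple_succ]
    have := mem_Pn.mp (hx j)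
    exact mem_Pn.mpr (by omega)
  refine ⟨⟨e.isSimpleGroup, ?_⟩, multi_of_hi f hf hX ?_, sharp_of_hi f hf hX ?_⟩
  · rw [Nat.card_congr e.toEquiv, hcard]
  · intro x y hx hy
    obtain ⟨g, hg⟩ := multi12 f0 hf0 _ _ (hcons x hx) (hcons y hy)
    have h0 := hg 0
    simp only [consTuple_zero] at h0
    exact ⟨_, mem_aut11.mpr ⟨psi_mem f0 hf0 g, h0⟩, fun i => by
      have := hg i.succ
      simpa using this⟩
  · intro x hx k hk hfix
    obtain ⟨hk1, hk2⟩ := mem_aut11.mp hk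
    refine sharp12 f0 hf0 _ (hcons x hx) hk1 (fun i => ?_)
    refine Fin.cases ?_ (fun j => ?_) i
    · simpa using hk2
    · simpa using hfix j

end CfsgLib.StCert.M12
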