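/-
Self-dual binary codes of length 24 and minimum weight at least 8: the coset count.
-/
import Cfsg.Prelude.Def_Sporadic_a

set_option autoImplicit false

namespace CfsgLib.StCert.Abs

open Cfsg

/-- The ambient space. -/
abbrev V := Fin 24 → ZMod 2

/-- The word with a given support. -/
def vecOf (S : Finset (Fin 24)) : V := fun i => if i ∈ S then 1 else 0

/-- The support of a word. -/
def supp (w : V) : Finset (Fin 24) := Finset.univ.filter fun i => w i ≠ 0

theorem supp_vecOf (S : Finset (Fin 24)) : supp (vecOf S) = S := by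
  ext i
  by_cases h : i ∈ S <;> simp [supp, vecOf, h]

theorem zmod2_eq_one {a : ZMod 2} (h : a ≠ 0) : a = 1 := by
  revert a
  decide

theorem vecOf_supp (w : V) : vecOf (supp w) = w := by
  funext i
  by_cases h : w i = 0
  · simp [vecOf, supp, h]
  · simp [vecOf, supp, h, zmod2_eq_one h]

theorem hamming_vecOf (S : Finset (Fin 24)) : hammingNorm (vecOf S) = S.card := by
  have : hammingNorm (vecOf S) = (supp (vecOf S)).card := rfl
  rw [this, supp_vecOf]

theorem hamming_eq (w : V) : hammingNorm w = (supp w).card := rfl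

theorem vecOf_add (S T : Finset (Fin 24)) : vecOf S + vecOf T = vecOf (symmDiff S T) := by
  funext i
  by_cases h1 : i ∈ S <;> by_cases h2 : i ∈ T <;> simp [vecOf, h1, h2, Finset.mem_symmDiff] <;> decide

theorem vecOf_inj : Function.Injective vecOf := by
  intro S T h
  have := congrArg supp h
  rwa [supp_vecOf, supp_vecOf] at this

theorem card_symmDiff (S T : Finset (Fin 24)) :
    (symmDiff S T).card + 2 * (S ∩ T).card = S.card + T.card := by
  have h1 : symmDiff S T = (S \ T) ∪ (T \ S) := rfl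
  rw [h1, Finset.card_union_of_disjoint (by
    rw [Finset.disjoint_left]
    intro x hx1 hx2
    exact (Finset.mem_sdiff.mp hx1).2 (Finset.mem_sdiff.mp hx2).1)]
  have h2 := Finset.card_sdiff_add_card_inter S T
  have h3 := Finset.card_sdiff_add_card_inter T S
  rw [Finset.inter_comm] at h3
  omega

theorem symmDiff_ne_empty {S T : Finset (Fin 24)} (h : S ≠ T) : symmDiff S T ≠ ∅ := by
  intro he
  exact h (symmDiff_eq_bot.mp he)

section
variable (C : Submodule (ZMod 2) V)

/-- The class of a set. -/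
def piC (S : Finset (Fin 24)) : V ⧸ C := Submodule.Quotient.mk (vecOf S)

theorem sub_eq_add_V (a b : V) : a - b = a + b := by
  funext i
  have : ∀ x y : ZMod 2, x - y = x + y := by decide
  exact this _ _

variable {C}

theorem piC_eq_iff {S T : Finset (Fin 24)} : piC C S = piC C T ↔ vecOf (symmDiff S T) ∈ C := by
  rw [piC, piC, Submodule.Quotient.eq, sub_eq_add_V, vecOf_add]

end

/-- The hypotheses on the code. -/
structure Good (C : Submodule (ZMod 2) V) : Prop where
  dim : Module.finrank (ZMod 2) C = 12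
  orth : ∀ v ∈ C, ∀ w ∈ C, ∑ i, v i * w i = 0
  min : ∀ w ∈ C, w ≠ 0 → 8 ≤ hammingNorm w

variable {C : Submodule (ZMod 2) V}

theorem Good.even (hC : Good C) {S : Finset (Fin 24)} (hS : vecOf S ∈ C) : Even S.card := by
  have h1 := hC.orth _ hS _ hS
  have h2 : ∑ i, vecOf S i * vecOf S i = (S.card : ZMod 2) := by
    have : ∀ i, vecOf S i * vecOf S i = if i ∈ S then 1 else 0 := by
      intro i
      by_cases h : i ∈ S <;> simp [vecOf, h]
    simp only [this]
    rw [Finset.sum_ite_mem, Finset.univ_inter, Finset.sum_const, nsmul_one]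
  rw [h2] at h1
  exact (ZMod.natCast_eq_zero_iff_even).mp h1

theorem Good.min_set (hC : Good C) {S : Finset (Fin 24)} (hS : vecOf S ∈ C) (hne : S ≠ ∅) : 8 ≤ S.card := by
  have := hC.min _ hS (by
    intro h
    apply hne
    have h2 := congrArg supp h
    rw [supp_vecOf] at h2
    rw [h2]
    ext i
    simp [supp])
  rwa [hamming_vecOf] at this

/-- Distinct sets in a class have large symmetric difference. -/
theorem Good.far (hC : Good C) {S T : Finset (Fin 24)} (h : piC C S = piC C T) (hne : S ≠ T) :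
    8 ≤ S.card + T.card - 2 * (S ∩ T).card := by
  have h1 := hC.min_set (piC_eq_iff.mp h) (symmDiff_ne_empty hne)
  have h2 := card_symmDiff S T
  omega

/-- The sets of size at most three. -/
def A3 : Finset (Finset (Fin 24)) := (Finset.range 4).biUnion fun k => Finset.powersetCard k Finset.univ

/-- The sets of size four. -/
def A4 : Finset (Finset (Fin 24)) := Finset.powersetCard 4 Finset.univ

theorem mem_A3 {S : Finset (Fin 24)} : S ∈ A3 ↔ S.card ≤ 3 := by
  simp only [A3, Finset.mem_biUnion, Finset.mem_range, Finset.mem_powersetCard, Finset.subset_univ, true_and]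
  constructor
  · rintro ⟨k, hk, rfl⟩
    omega
  · intro h
    exact ⟨_, by omega, rfl⟩

theorem mem_A4 {S : Finset (Fin 24)} : S ∈ A4 ↔ S.card = 4 := by
  simp [A4, Finset.mem_powersetCard]

theorem card_A3 : A3.card = 2325 := by
  rw [A3, Finset.card_biUnion (fun x _ y _ hxy => Finset.pairwise_disjoint_powersetCard _ hxy)]
  simp only [Finset.card_powersetCard, Finset.card_univ, Fintype.card_fin]
  decide

theorem card_A4 : A4.card = 10626 := by
  rw [A4, Finset.card_powersetCard, Finset.card_univ, Fintype.card_fin]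
  decide

open Classical in
/-- The fibre of the class map on the four-sets. -/
noncomputable def Fib (C : Submodule (ZMod 2) V) (q : V ⧸ C) : Finset (Finset (Fin 24)) :=
  A4.filter fun S => piC C S = q

theorem mem_Fib {q : V ⧸ C} {S : Finset (Fin 24)} : S ∈ Fib C q ↔ S.card = 4 ∧ piC C S = q := by
  simp [Fib, mem_A4]

theorem Good.fib_disjoint (hC : Good C) {q : V ⧸ C} {S T : Finset (Fin 24)} (hS : S ∈ Fib C q) (hT : T ∈ Fib C q)
    (hne : S ≠ T) : Disjoint S T := by
  obtain ⟨h1, h2⟩ := mem_Fib.mp hS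
  obtain ⟨h3, h4⟩ := mem_Fib.mp hT
  have h5 := hC.far (h2.trans h4.symm) hne
  rw [Finset.disjoint_iff_inter_eq_empty, ← Finset.card_eq_zero]
  omega

theorem Good.fib_le (hC : Good C) (q : V ⧸ C) : (Fib C q).card ≤ 6 := by
  classical
  have h1 : ((Fib C q).biUnion id).card = ∑ S ∈ Fib C q, (id S).card :=
    Finset.card_biUnion (fun S hS T hT hne => hC.fib_disjoint hS hT hne)
  have h2 : ∑ S ∈ Fib C q, (id S).card = (Fib C q).card * 4 := by
    have : ∀ S ∈ Fib C q, (id S).card = 4 := fun S hS => (mem_Fib.mp hS).1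
    rw [Finset.sum_congr rfl this, Finset.sum_const, smul_eq_mul]
  have h3 : ((Fib C q).biUnion id).card ≤ 24 := by
    have := Finset.card_le_univ ((Fib C q).biUnion id)
    simpa using this
  omega

theorem Good.card_quot (hC : Good C) : Nat.card (V ⧸ C) = 4096 := by
  have h1 := Submodule.card_eq_card_quotient_mul_card C
  have h2 : Nat.card C = 2 ^ 12 := by
    rw [Module.natCard_eq_pow_finrank (K := ZMod 2) (V := C), hC.dim]
    simp
  have h3 : Nat.card V = 2 ^ 24 := by
    simp [V, Nat.card_eq_fintype_card]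
  rw [h3, h2] at h1
  omega

section count
variable (hC : Good C)
include hC

open Classical in
theorem Good.injOn_A3 : Set.InjOn (piC C) (A3 : Set (Finset (Fin 24))) := by
  intro S hS T hT h
  by_contra hne
  have h1 := hC.far h hne
  have h2 := mem_A3.mp hS
  have h3 := mem_A3.mp hT
  omega

theorem Good.disjoint_A3_A4 {S T : Finset (Fin 24)} (hS : S.card ≤ 3) (hT : T.card = 4) : piC C S ≠ piC C T := by
  intro h
  have hne : S ≠ T := by
    rintro rfl
    omega
  have h1 := hC.far h hne
  omega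

open Classical in
/-- The main count. -/
theorem Good.count : ∀ q : V ⧸ C, (∃ T : Finset (Fin 24), T.card ≤ 3 ∧ piC C T = q) ∨ (Fib C q).card = 6 := by
  haveI : Fintype (V ⧸ C) := Fintype.ofFinite _
  set I3 := A3.image (piC C) with hI3
  set I4 := A4.image (piC C) with hI4
  have h3 : I3.card = 2325 := by
    rw [hI3, Finset.card_image_of_injOn hC.injOn_A3, card_A3]
  have hdis : Disjoint I3 I4 := by
    rw [Finset.disjoint_left]
    intro q hq1 hq2
    obtain ⟨S, hS, rfl⟩ := Finset.mem_image.mp hq1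
    obtain ⟨T, hT, hTe⟩ := Finset.mem_image.mp hq2
    exact hC.disjoint_A3_A4 (mem_A3.mp hS) (mem_A4.mp hT) hTe.symm
  have hU : (I3 ∪ I4).card ≤ 4096 := by
    have := Finset.card_le_univ (I3 ∪ I4)
    rwa [← Nat.card_eq_fintype_card, hC.card_quot] at this
  rw [Finset.card_union_of_disjoint hdis, h3] at hU
  have hsum : 10626 = ∑ q ∈ I4, (Fib C q).card := by
    rw [← card_A4, hI4]
    exact Finset.card_eq_sum_card_image (piC C) A4
  have hle : ∑ q ∈ I4, (Fib C q).card ≤ I4.card * 6 := by
    have := Finset.sum_le_card_nsmul I4 (fun q => (Fib C q).card) 6 (fun q _ => hC.fib_le q)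
    simpa using this
  have hI4c : I4.card = 1771 := by omega
  have hall : I3 ∪ I4 = Finset.univ := by
    apply Finset.eq_univ_of_card
    rw [Finset.card_union_of_disjoint hdis, h3, hI4c, ← Nat.card_eq_fintype_card, hC.card_quot]
  have hsix : ∀ q ∈ I4, (Fib C q).card = 6 := by
    by_contra hcon
    push Not at hcon
    obtain ⟨q, hq, hq6⟩ := hcon
    have hlt : (Fib C q).card < 6 := lt_of_le_of_ne (hC.fib_le q) hq6
    have : ∑ q ∈ I4, (Fib C q).card < ∑ q ∈ I4, 6 :=
      Finset.sum_lt_sum (fun q _ => hC.fib_le q) ⟨q, hq, hlt⟩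
    rw [Finset.sum_const, smul_eq_mul, hI4c] at this
    omega
  intro q
  have hq : q ∈ I3 ∪ I4 := by
    rw [hall]
    exact Finset.mem_univ _
  rcases Finset.mem_union.mp hq with h | h
  · left
    obtain ⟨T, hT, rfl⟩ := Finset.mem_image.mp h
    exact ⟨T, mem_A3.mp hT, rfl⟩
  · right
    exact hsix q h

end count

/-- Every five points lie in a unique block of weight eight. -/
theorem Good.steiner_exists (hC : Good C) (S : Finset (Fin 24)) (hS : S.card = 5) :
    ∃ T : Finset (Fin 24), vecOf T ∈ C ∧ T.card = 8 ∧ S ⊆ T := by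
  classical
  have hpar : (Fib C (piC C S)).card = 6 → False := by
    intro h6
    obtain ⟨T, hT⟩ : (Fib C (piC C S)).Nonempty := Finset.card_pos.mp (by omega)
    obtain ⟨h1, h2⟩ := mem_Fib.mp hT
    have h3 := hC.even (piC_eq_iff.mp h2)
    have h4 := card_symmDiff T S
    rw [Nat.even_iff] at h3
    omega
  rcases hC.count (piC C S) with ⟨T, hT, hTe⟩ | h
  · have hne : T ≠ S := by
      rintro rfl
      omega
    have h1 := hC.far hTe hne
    have h2 := hC.even (piC_eq_iff.mp hTe)
    have h4 := card_symmDiff T S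
    rw [Nat.even_iff] at h2
    have hT3 : T.card = 3 := by omega
    have h5 : (T ∩ S).card = 0 := by omega
    refine ⟨symmDiff T S, piC_eq_iff.mp hTe, by omega, ?_⟩
    intro x hx
    rw [Finset.mem_symmDiff]
    right
    refine ⟨hx, fun hxT => ?_⟩
    have : x ∈ T ∩ S := Finset.mem_inter.mpr ⟨hxT, hx⟩
    rw [Finset.card_eq_zero.mp h5] at this
    simp at this
  · exact (hpar h).elim

theorem Good.steiner_unique (hC : Good C) {S T T' : Finset (Fin 24)} (hS : S.card = 5) (hT : vecOf T ∈ C)
    (hT' : vecOf T' ∈ C) (h8 : T.card = 8) (h8' : T'.card = 8) (hsub : S ⊆ T) (hsub' : S ⊆ T') : T = T' := by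
  by_contra hne
  have h1 : vecOf (symmDiff T T') ∈ C := by
    rw [← vecOf_add]
    exact C.add_mem hT hT'
  have h2 := hC.min_set h1 (symmDiff_ne_empty hne)
  have h3 := card_symmDiff T T'
  have h4 : 5 ≤ (T ∩ T').card := by
    rw [← hS]
    exact Finset.card_le_card (Finset.subset_inter hsub hsub')
  omega

theorem mem_wordsOfWeight_iff {b : Finset (Fin 24)} {n : ℕ} :
    b ∈ wordsOfWeight (C : Set V) n ↔ vecOf b ∈ C ∧ b.card = n := by
  constructor
  · rintro ⟨⟨w, hw, rfl⟩, h2⟩
    refine ⟨?_, h2⟩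
    have : support₂ w = supp w := rfl
    rw [this, vecOf_supp]
    exact hw
  · rintro ⟨h1, h2⟩
    exact ⟨⟨vecOf b, h1, supp_vecOf b⟩, h2⟩

theorem Good.steiner (hC : Good C) : IsSteinerSystem 5 8 (wordsOfWeight (C : Set V) 8) := by
  refine ⟨fun b hb => hb.2, fun s hs => ?_⟩
  obtain ⟨T, h1, h2, h3⟩ := hC.steiner_exists s hs
  refine ⟨T, ⟨mem_wordsOfWeight_iff.mpr ⟨h1, h2⟩, h3⟩, ?_⟩
  rintro T' ⟨hT', h4⟩
  obtain ⟨h5, h6⟩ := mem_wordsOfWeight_iff.mp hT'
  exact hC.steiner_unique hs h5 h1 h6 h2 h4 h3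

/-- The coset statement. -/
theorem Good.cosets (hC : Good C) (w : V) :
    (∃ u : V, {u : V | u - w ∈ C ∧ hammingNorm u ≤ 4} = {u} ∧ hammingNorm u ≤ 3) ∨
    ({u : V | u - w ∈ C ∧ hammingNorm u ≤ 4}.ncard = 6 ∧
      ∀ u ∈ {u : V | u - w ∈ C ∧ hammingNorm u ≤ 4}, hammingNorm u = 4 ∧
        ∀ u' ∈ {u : V | u - w ∈ C ∧ hammingNorm u ≤ 4}, u ≠ u' →
          Disjoint (Finset.univ.filter fun i => u i ≠ 0) (Finset.univ.filter fun i => u' i ≠ 0)) := by
  classical
  set q : V ⧸ C := Submodule.Quotient.mk w with hq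
  have hmem : ∀ u : V, u - w ∈ C ↔ piC C (supp u) = q := by
    intro u
    rw [piC, vecOf_supp, hq, Submodule.Quotient.eq]
  rcases hC.count q with ⟨T, hT, hTe⟩ | h6
  · left
    refine ⟨vecOf T, ?_, by rw [hamming_vecOf]; exact hT⟩
    ext u
    simp only [Set.mem_ofPred_eq, Set.mem_singleton_iff]
    constructor
    · rintro ⟨h1, h2⟩
      have h3 := (hmem u).mp h1
      rw [← vecOf_supp u]
      congr 1
      by_contra hne
      have h4 := hC.far (h3.trans hTe.symm) hne
      rw [hamming_eq] at h2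
      omega
    · rintro rfl
      refine ⟨(hmem _).mpr ?_, by rw [hamming_vecOf]; omega⟩
      rw [supp_vecOf]
      exact hTe
  · right
    have hno : ∀ T : Finset (Fin 24), T.card ≤ 3 → piC C T ≠ q := by
      intro T hT hTe
      obtain ⟨S, hS⟩ : (Fib C q).Nonempty := Finset.card_pos.mp (by omega)
      obtain ⟨h1, h2⟩ := mem_Fib.mp hS
      exact hC.disjoint_A3_A4 hT h1 (hTe.trans h2.symm)
    have hU : {u : V | u - w ∈ C ∧ hammingNorm u ≤ 4} = vecOf '' (Fib C q : Set (Finset (Fin 24))) := by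
      ext u
      simp only [Set.mem_ofPred_eq, Set.mem_image, Finset.mem_coe]
      constructor
      · rintro ⟨h1, h2⟩
        have h3 := (hmem u).mp h1
        rw [hamming_eq] at h2
        refine ⟨supp u, mem_Fib.mpr ⟨?_, h3⟩, vecOf_supp u⟩
        by_contra h4
        exact hno (supp u) (by omega) h3
      · rintro ⟨S, hS, rfl⟩
        obtain ⟨h1, h2⟩ := mem_Fib.mp hS
        refine ⟨(hmem _).mpr (by rw [supp_vecOf]; exact h2), by rw [hamming_vecOf]; omega⟩
    refine ⟨?_, ?_⟩
    · rw [hU, Set.ncard_image_of_injective _ vecOf_inj, Set.ncard_coe_finset, h6]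
    · rw [hU]
      rintro _ ⟨S, hS, rfl⟩
      have hS' := mem_Fib.mp (Finset.mem_coe.mp hS)
      refine ⟨by rw [hamming_vecOf]; exact hS'.1, ?_⟩
      rintro _ ⟨T, hT, rfl⟩ hne
      have hST : S ≠ T := fun he => hne (by rw [he])
      have := hC.fib_disjoint (Finset.mem_coe.mp hS) (Finset.mem_coe.mp hT) hST
      change Disjoint (supp (vecOf S)) (supp (vecOf T))
      rwa [supp_vecOf, supp_vecOf]

end CfsgLib.StCert.Abs
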