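/-
A self-dual binary code of length 24 with minimum weight at least 8 is the code built from the squares modulo 23.
-/
import Cfsg.Agent.Lib.StCert.CodeAbs
import Cfsg.Agent.Lib.StCert.W24
import Cfsg.Agent.Lib.StCert.Aut

set_option autoImplicit false
set_option maxRecDepth 100000

namespace CfsgLib.StCert.Abs

open Cfsg CfsgLib.Golay CfsgLib.StCert

theorem word_mem_of_spanList {S : Submodule (ZMod 2) (GolayPt → ZMod 2)} {B : List ℕ} (hB : ∀ b ∈ B, word b ∈ S) {c : ℕ}
    (hc : c ∈ spanList B) : word c ∈ S := by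
  induction B generalizing c with
  | nil =>
    simp only [spanList, List.mem_singleton] at hc
    subst hc
    rw [word_zero]
    exact Submodule.zero_mem _
  | cons b B ih =>
    have hB' : ∀ x ∈ B, word x ∈ S := fun x hx => hB x (by simp [hx])
    rcases mem_spanList_cons.mp hc with h | ⟨d, hd, rfl⟩
    · exact ih hB' h
    · rw [word_xor]
      exact Submodule.add_mem _ (ih hB' hd) (hB b (by simp))

theorem basis_in_E24 : (basis.all fun c => inL c W24.E24) = true := by decide +kernel

variable {C : Submodule (ZMod 2) V}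

/-- The main comparison. -/
theorem Good.exists_equiv (hC : Good C) :
    ∃ e : Fin 24 ≃ GolayPt, (∀ w : GolayPt → ZMod 2, w ∈ golayCode ↔ (fun i => w (e i)) ∈ C) ∧
      ∀ b : Finset (Fin 24), b ∈ wordsOfWeight (C : Set V) 8 ↔ b.map e.toEmbedding ∈ octads := by
  obtain ⟨f, hf⟩ := std_of_T (n := 24) (by norm_num) W24.T24 (Fintype.card_fin 24) hC.steiner
  let e : Fin 24 ≃ GolayPt := f.trans (Equiv.subtypeUnivEquiv (fun q => by rw [W24.Pn_24]; exact Finset.mem_univ _))
  have he : ∀ a, e a = embP f a := fun _ => rfl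
  have hmap : ∀ b : Finset (Fin 24), b.map e.toEmbedding = b.map (embP f) := by
    intro b
    ext q
    simp only [Finset.mem_map, Equiv.coe_toEmbedding, he]
  let W : (GolayPt → ZMod 2) ≃ₗ[ZMod 2] (Fin 24 → ZMod 2) := LinearEquiv.funCongrLeft (ZMod 2) (ZMod 2) e
  have hW : ∀ w i, W w i = w (e i) := fun _ _ => rfl
  let C' : Submodule (ZMod 2) (GolayPt → ZMod 2) := C.comap W.toLinearMap
  have hb : ∀ c ∈ basis, word c ∈ C' := by
    intro c hc
    have h1 : c ∈ W24.E24 := inL_iff.mp (List.all_eq_true.mp basis_in_E24 c hc)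
    obtain ⟨b, hb⟩ := exists_map_eq f (x := fs c) (by rw [W24.Pn_24]; exact Finset.subset_univ _)
    have h2 : b ∈ wordsOfWeight (C : Set V) 8 := by
      rw [hf, hb]
      exact ⟨c, h1, rfl⟩
    obtain ⟨h3, _⟩ := mem_wordsOfWeight_iff.mp h2
    have h4 : W (word c) = vecOf b := by
      funext i
      have h5 : i ∈ b ↔ e i ∈ fs c := by
        rw [← hb, he]
        simp
      by_cases h6 : i ∈ b
      · have h7 := h5.mp h6
        rw [hW, vecOf]
        simp only [h6, if_true]
        simp only [word, mem_fs.mp h7, if_true]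
      · have h7 : ¬ e i ∈ fs c := fun h8 => h6 (h5.mpr h8)
        rw [mem_fs] at h7
        rw [hW, vecOf]
        simp only [h6, if_false]
        simp [word, h7]
    change W (word c) ∈ C
    rw [h4]
    exact h3
  have hle : golayCode ≤ C' := by
    intro w hw
    obtain ⟨c, hc, rfl⟩ := (mem_golayCode_iff w).mp hw
    exact word_mem_of_spanList hb hc
  have hdim : Module.finrank (ZMod 2) C' = 12 := by
    have h1 : C' = C.map W.symm.toLinearMap := (Submodule.map_equiv_eq_comap_symm W.symm C).symm
    rw [h1, LinearEquiv.finrank_map_eq]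
    exact hC.dim
  have heq : golayCode = C' := Submodule.eq_of_le_of_finrank_eq hle (by rw [golayCode_finrank, hdim])
  refine ⟨e, fun w => ?_, fun b => ?_⟩
  · rw [heq]
    rfl
  · rw [hf, hmap, W24.setOf_E24]

theorem Good.span_eq (hC : Good C) :
    Submodule.span (ZMod 2) {w : Fin 24 → ZMod 2 | w ∈ C ∧ hammingNorm w = 8} = C := by
  obtain ⟨e, he, hoct⟩ := hC.exists_equiv
  apply le_antisymm
  · rw [Submodule.span_le]
    rintro w ⟨hw, -⟩
    exact hw
  · intro w hw
    let W : (GolayPt → ZMod 2) ≃ₗ[ZMod 2] (Fin 24 → ZMod 2) := LinearEquiv.funCongrLeft (ZMod 2) (ZMod 2) e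
    have hW : ∀ w i, W w i = w (e i) := fun _ _ => rfl
    let S' : Submodule (ZMod 2) (GolayPt → ZMod 2) :=
      (Submodule.span (ZMod 2) {w : Fin 24 → ZMod 2 | w ∈ C ∧ hammingNorm w = 8}).comap W.toLinearMap
    have hb : ∀ c ∈ basis, word c ∈ S' := by
      intro c hc
      have h1 : c ∈ W24.E24 := inL_iff.mp (List.all_eq_true.mp basis_in_E24 c hc)
      have h1' : fs c ∈ octads := by
        rw [← W24.setOf_E24]
        exact ⟨c, h1, rfl⟩
      let b : Finset (Fin 24) := (fs c).map e.symm.toEmbedding
      have hbm : b.map e.toEmbedding = fs c := by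
        ext q
        simp [b]
      have h2 : b ∈ wordsOfWeight (C : Set V) 8 := by
        rw [hoct, hbm]
        exact h1'
      obtain ⟨h3, h3'⟩ := mem_wordsOfWeight_iff.mp h2
      have h4 : W (word c) = vecOf b := by
        funext i
        have h5 : i ∈ b ↔ e i ∈ fs c := by
          rw [← hbm]
          simp
        by_cases h6 : i ∈ b
        · have h7 := h5.mp h6
          rw [hW, vecOf]
          simp only [h6, if_true]
          simp only [word, mem_fs.mp h7, if_true]
        · have h7 : ¬ e i ∈ fs c := fun h8 => h6 (h5.mpr h8)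
          rw [mem_fs] at h7
          rw [hW, vecOf]
          simp only [h6, if_false]
          simp [word, h7]
      change W (word c) ∈ Submodule.span (ZMod 2) {w : Fin 24 → ZMod 2 | w ∈ C ∧ hammingNorm w = 8}
      rw [h4]
      exact Submodule.subset_span ⟨h3, by rw [hamming_vecOf]; exact h3'⟩
    have h1 : (fun p => w (e.symm p)) ∈ golayCode := by
      rw [he]
      simpa using hw
    obtain ⟨c, hc, hce⟩ := (mem_golayCode_iff _).mp h1
    have h2 : word c ∈ S' := word_mem_of_spanList hb hc
    have h3 : W (word c) = w := by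
      funext i
      rw [hW, ← hce]
      simp
    rw [← h3]
    exact h2

end CfsgLib.StCert.Abs
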