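/-
Hyperovals of a projective plane of order four, carried from the explicit plane.
-/
import Cfsg.Agent.Lib.StCert.HyperData
import Cfsg.Agent.Lib.StCert.Aut
import Cfsg.Agent.Lib.StCert.W24

set_option autoImplicit false
set_option maxRecDepth 100000

namespace CfsgLib.StCert.W24

open Cfsg CfsgLib.Golay CfsgLib.StCert
open scoped Pointwise

universe u
variable {α : Type u} [Fintype α] [DecidableEq α]

/-- The mask of a set of the plane. -/
def codeF (f : α ≃ ↥(Pn 21)) (S : Finset α) : ℕ := mask (S.map (embP f))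

theorem fs_codeF (f : α ≃ ↥(Pn 21)) (S : Finset α) : fs (codeF f S) = S.map (embP f) := fs_mask _

theorem codeF_inj (f : α ≃ ↥(Pn 21)) : Function.Injective (codeF f) := by
  intro a b h
  have := congrArg fs h
  rw [fs_codeF, fs_codeF] at this
  exact Finset.map_inj.mp this

theorem map_sub (f : α ≃ ↥(Pn 21)) (S : Finset α) : S.map (embP f) ⊆ Pn 21 := by
  intro q hq
  obtain ⟨a, _, rfl⟩ := Finset.mem_map.mp hq
  exact embP_mem f a

theorem codeF_lt (f : α ≃ ↥(Pn 21)) (S : Finset α) : codeF f S < 2 ^ 21 := mask_lt_of_sub (map_sub f S)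

theorem pop_codeF (f : α ≃ ↥(Pn 21)) (S : Finset α) : pop (codeF f S) = S.card := by
  rw [← card_fs, fs_codeF, Finset.card_map]

theorem lt24_of_lt21 {m : ℕ} (hm : m < 2 ^ 21) : m < 2 ^ 24 :=
  lt_of_lt_of_le hm (Nat.pow_le_pow_right (by norm_num) (by norm_num))

theorem codeF_surj (f : α ≃ ↥(Pn 21)) {m : ℕ} (hm : m < 2 ^ 21) : ∃ S, codeF f S = m := by
  obtain ⟨S, hS⟩ := exists_map_eq f (fs_sub_Pn (n := 21) (by norm_num) hm)
  refine ⟨S, ?_⟩
  rw [codeF, hS]
  exact mask_fs (lt24_of_lt21 hm)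

theorem card_inter_codeF (f : α ≃ ↥(Pn 21)) (b S : Finset α) :
    (b ∩ S).card = pop (Nat.land (codeF f b) (codeF f S)) := by
  have h1 : fs (Nat.land (codeF f b) (codeF f S)) = fs (codeF f b) ∩ fs (codeF f S) := fs_land _ _
  rw [← card_fs, h1, fs_codeF, fs_codeF, ← Finset.map_inter, Finset.card_map]

theorem D21_lt : (D21.all fun m => Nat.blt m (2 ^ 21)) = true := by decide +kernel

theorem D21_lt' {m : ℕ} (hm : m ∈ D21) : m < 2 ^ 21 := by
  have := List.all_eq_true.mp D21_lt m hm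
  simpa [Nat.blt] using this

variable {L : Set (Finset α)}

theorem indep_iff (f : α ≃ ↥(Pn 21)) (hf : ∀ b : Finset α, b ∈ L ↔ b.map (embP f) ∈ setOf D21) (S : Finset α) :
    (∀ l ∈ L, (l ∩ S).card ≤ 2) ↔ indB (codeF f S) = true := by
  simp only [indB, List.all_eq_true, Nat.ble_eq]
  constructor
  · intro h m hm
    obtain ⟨b, hb⟩ := codeF_surj f (D21_lt' hm)
    have hbL : b ∈ L := by
      rw [hf]
      refine ⟨m, hm, ?_⟩
      rw [← fs_codeF, hb]
    have := h b hbL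
    rwa [card_inter_codeF, hb] at this
  · intro h l hl
    obtain ⟨m, hm, hme⟩ := (hf l).mp hl
    have h1 : codeF f l = m := by
      rw [codeF, hme]
      exact mask_fs (lt24_of_lt21 (D21_lt' hm))
    rw [card_inter_codeF, h1]
    exact h m hm

theorem mem_filter_iff (f : α ≃ ↥(Pn 21)) (hf : ∀ b : Finset α, b ∈ L ↔ b.map (embP f) ∈ setOf D21) (k : ℕ)
    (S : Finset α) : (S.card = k ∧ ∀ l ∈ L, (l ∩ S).card ≤ 2) ↔ codeF f S ∈ (subs 21 k).filter indB := by
  rw [List.mem_filter, indep_iff f hf]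
  constructor
  · rintro ⟨h1, h2⟩
    exact ⟨mask_mem_subs_of (by norm_num) (map_sub f S) (by rw [Finset.card_map, h1]), h2⟩
  · rintro ⟨h1, h2⟩
    refine ⟨?_, h2⟩
    obtain ⟨h3, h4⟩ := (mem_subs _ _ _).mp h1
    rw [bitCount_eq_pop (by norm_num) h3, pop_codeF] at h4
    exact h4

theorem ncard_T (f : α ≃ ↥(Pn 21)) (hf : ∀ b : Finset α, b ∈ L ↔ b.map (embP f) ∈ setOf D21) (k : ℕ) :
    {S : Finset α | S.card = k ∧ ∀ l ∈ L, (l ∩ S).card ≤ 2}.ncard = ((subs 21 k).filter indB).length := by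
  have himg : codeF f '' {S : Finset α | S.card = k ∧ ∀ l ∈ L, (l ∩ S).card ≤ 2} =
      (((subs 21 k).filter indB).toFinset : Set ℕ) := by
    ext m
    simp only [Set.mem_image, Set.mem_ofPred_eq, List.coe_toFinset]
    constructor
    · rintro ⟨S, hS, rfl⟩
      exact (mem_filter_iff f hf k S).mp hS
    · intro hm
      have hlt : m < 2 ^ 21 := ((mem_subs _ _ _).mp (List.mem_of_mem_filter hm)).1
      obtain ⟨S, rfl⟩ := codeF_surj f hlt
      exact ⟨S, (mem_filter_iff f hf k S).mpr hm, rfl⟩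
  rw [← Set.ncard_image_of_injective _ (codeF_inj f), himg, Set.ncard_coe_finset,
    List.toFinset_card_of_nodup ((subs_nodup _ _).filter _)]

theorem unique_hyper (f : α ≃ ↥(Pn 21)) (hf : ∀ b : Finset α, b ∈ L ↔ b.map (embP f) ∈ setOf D21) (S : Finset α)
    (hS : S.card = 4 ∧ ∀ l ∈ L, (l ∩ S).card ≤ 2) :
    ∃! H : Finset α, (H.card = 6 ∧ ∀ l ∈ L, (l ∩ H).card ≤ 2) ∧ S ⊆ H := by
  have h4 := (mem_filter_iff f hf 4 S).mp hS
  rw [I4_eq] at h4
  have h1 := List.all_eq_true.mp I4_uniq _ h4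
  have h2 : ((I6L.filter fun h => Nat.beq (Nat.land h (codeF f S)) (codeF f S)).length) = 1 :=
    Nat.eq_of_beq_eq_true h1
  obtain ⟨h, hh⟩ := List.length_eq_one_iff.mp h2
  have hmem : h ∈ I6L.filter fun h => Nat.beq (Nat.land h (codeF f S)) (codeF f S) := by
    rw [hh]
    simp
  have hI6 := List.mem_of_mem_filter hmem
  have hlt : h < 2 ^ 21 := by
    rw [← I6_eq] at hI6
    exact ((mem_subs _ _ _).mp (List.mem_of_mem_filter hI6)).1
  obtain ⟨H, rfl⟩ := codeF_surj f hlt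
  have hsub : S ⊆ H := by
    have h3 : Nat.land (codeF f H) (codeF f S) = codeF f S := by
      have := (List.mem_filter.mp hmem).2
      exact Nat.eq_of_beq_eq_true this
    have h5 := fs_sub_of_land h3
    rw [fs_codeF, fs_codeF] at h5
    exact Finset.map_subset_map.mp h5
  refine ⟨H, ⟨?_, hsub⟩, ?_⟩
  · rw [mem_filter_iff f hf, I6_eq]
    exact hI6
  · rintro H' ⟨hH', hsub'⟩
    have h6 := (mem_filter_iff f hf 6 H').mp hH'
    rw [I6_eq] at h6
    have h7 : codeF f H' ∈ I6L.filter fun h => Nat.beq (Nat.land h (codeF f S)) (codeF f S) := by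
      refine List.mem_filter.mpr ⟨h6, ?_⟩
      rw [Nat.beq_eq]
      apply land_of_fs_sub (lt24_of_lt21 (codeF_lt f S)) (lt24_of_lt21 (codeF_lt f H'))
      rw [fs_codeF, fs_codeF]
      exact Finset.map_subset_map.mpr hsub'
    rw [hh] at h7
    exact codeF_inj f (by simpa using h7)

/-! ### Automorphisms -/

theorem mk_mem_aut {π : ℕ} (h : autChk π = true) : mk π ∈ autHi 21 (setOf D21) := by
  simp only [autChk, leafOK, Bool.and_eq_true, List.all_eq_true, inL_iff] at h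
  obtain ⟨⟨hp, h1⟩, h2⟩ := h
  obtain ⟨hv, hfix⟩ := permOK_fix hp
  refine ⟨hfix, ?_⟩
  apply Set.Subset.antisymm
  · rintro _ ⟨x, ⟨m, hm, rfl⟩, rfl⟩
    exact ⟨img π m, h1 m hm, (fs_img hv m).symm⟩
  · rintro _ ⟨m, hm, rfl⟩
    refine Set.mem_smul_set.mpr ⟨fs (img (pinv π) m), ⟨_, h2 m hm, rfl⟩, ?_⟩
    rw [fs_img_pinv hv]
    exact smul_inv_smul _ _

theorem valid_of_autChk {π : ℕ} (h : autChk π = true) : valid π = true := by
  simp only [autChk, leafOK, Bool.and_eq_true] at h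
  exact (permOK_fix h.1.1).1

theorem mem_H0pts {p : ℕ} : p ∈ H0pts ↔ p < 24 ∧ H0L.testBit p = true := by
  revert p
  have key : ∀ p, p < 24 → (p ∈ H0pts ↔ H0L.testBit p = true) := by decide +kernel
  intro p
  constructor
  · intro h
    have hlt : p < 24 := by
      have : (H0pts.all fun p => Nat.blt p 24) = true := by decide +kernel
      simpa [Nat.blt] using List.all_eq_true.mp this p h
    exact ⟨hlt, (key p hlt).mp h⟩
  · rintro ⟨h1, h2⟩
    exact (key p h1).mpr h2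

/-- The swaps on the first hyperoval. -/
theorem swap_H0 {x y : GolayPt} (hx : x ∈ fs H0L) (hy : y ∈ fs H0L) (hxy : x ≠ y) :
    ∃ k ∈ autHi 21 (setOf D21), k x = y ∧ k y = x ∧ ∀ c ∈ fs H0L, c ≠ x → c ≠ y → k c = c := by
  have hx' : idx x ∈ H0pts := mem_H0pts.mpr ⟨idx_lt x, mem_fs.mp hx⟩
  have hy' : idx y ∈ H0pts := mem_H0pts.mpr ⟨idx_lt y, mem_fs.mp hy⟩
  have h1 := List.all_eq_true.mp (List.all_eq_true.mp swap_pairs _ hx') _ hy'
  simp only [Bool.or_eq_true, Nat.beq_eq, List.any_eq_true, Bool.and_eq_true] at h1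
  rcases h1 with h1 | ⟨s, hs, h1⟩
  · exact absurd (idx_inj h1) hxy
  have h2 := List.all_eq_true.mp swapL_ok s hs
  simp only [Bool.and_eq_true, List.all_eq_true, Nat.beq_eq] at h2
  obtain ⟨h3, h4⟩ := h2
  have hv := valid_of_autChk h3
  have hval : ∀ p ∈ H0pts, idx (mk s.2.2 (pt p)) = if p = s.1 then s.2.1 else if p = s.2.1 then s.1 else p := by
    intro p hp
    have hlt := (mem_H0pts.mp hp).1
    rw [idx_mk hv, idx_pt hlt]
    exact h4 p hp
  have hval' : ∀ q : GolayPt, idx q ∈ H0pts →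
      idx (mk s.2.2 q) = if idx q = s.1 then s.2.1 else if idx q = s.2.1 then s.1 else idx q := by
    intro q hq
    have := hval (idx q) hq
    rwa [pt_idx] at this
  have hne : ∀ a b : GolayPt, a ≠ b → idx a ≠ idx b := fun a b h he => h (idx_inj he)
  refine ⟨mk s.2.2, mk_mem_aut h3, ?_, ?_, ?_⟩
  · apply idx_inj
    rw [hval' x hx']
    rcases h1 with ⟨h5, h6⟩ | ⟨h5, h6⟩
    · rw [h5, h6]
      simp
    · rw [h5, h6, if_neg (hne _ _ hxy)]
      simp
  · apply idx_inj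
    rw [hval' y hy']
    rcases h1 with ⟨h5, h6⟩ | ⟨h5, h6⟩
    · rw [h5, h6, if_neg (hne _ _ hxy.symm)]
      simp
    · rw [h5, h6]
      simp
  · intro c hc hcx hcy
    have hc' : idx c ∈ H0pts := mem_H0pts.mpr ⟨idx_lt c, mem_fs.mp hc⟩
    apply idx_inj
    rw [hval' c hc']
    rcases h1 with ⟨h5, h6⟩ | ⟨h5, h6⟩
    · rw [h5, h6, if_neg (hne _ _ hcx), if_neg (hne _ _ hcy)]
    · rw [h5, h6, if_neg (hne _ _ hcy), if_neg (hne _ _ hcx)]

/-- Elements of the group move the first hyperoval to any other. -/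
theorem exists_rep {h : ℕ} (hh : h ∈ I6L) : ∃ ρ ∈ autHi 21 (setOf D21), ρ • fs H0L = fs h := by
  obtain ⟨s, hs, h1⟩ := List.any_eq_true.mp (List.all_eq_true.mp repL_cover h hh)
  have h2 := List.all_eq_true.mp repL_ok s hs
  simp only [Bool.and_eq_true, Nat.beq_eq] at h1 h2
  refine ⟨mk s.2, mk_mem_aut h2.1, ?_⟩
  rw [← fs_img (valid_of_autChk h2.1), h2.2, h1]

/-- The swaps on any hyperoval. -/
theorem swap_H {h : ℕ} (hh : h ∈ I6L) {x y : GolayPt} (hx : x ∈ fs h) (hy : y ∈ fs h) (hxy : x ≠ y) :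
    ∃ k ∈ autHi 21 (setOf D21), k x = y ∧ k y = x ∧ ∀ c ∈ fs h, c ≠ x → c ≠ y → k c = c := by
  obtain ⟨ρ, hρ, he⟩ := exists_rep hh
  have hpull : ∀ z ∈ fs h, ρ⁻¹ z ∈ fs H0L := by
    intro z hz
    rw [← he] at hz
    obtain ⟨w, hw, rfl⟩ := Finset.mem_smul_finset.mp hz
    simpa using hw
  obtain ⟨k, hk, h1, h2, h3⟩ := swap_H0 (hpull x hx) (hpull y hy) (fun hh' => hxy (ρ⁻¹.injective hh'))
  refine ⟨ρ * k * ρ⁻¹, mul_mem (mul_mem hρ hk) (inv_mem hρ), ?_, ?_, ?_⟩
  · show ρ (k (ρ⁻¹ x)) = y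
    rw [h1]
    simp
  · show ρ (k (ρ⁻¹ y)) = x
    rw [h2]
    simp
  · intro c hc hcx hcy
    have h4 := h3 _ (hpull c hc) (fun hh' => hcx (ρ⁻¹.injective hh')) (fun hh' => hcy (ρ⁻¹.injective hh'))
    show ρ (k (ρ⁻¹ c)) = c
    rw [h4]
    simp

/-- An automorphism fixing the first hyperoval pointwise is trivial. -/
theorem fix_H0 {k : Equiv.Perm GolayPt} (hk : k ∈ autHi 21 (setOf D21)) (hfix : ∀ c ∈ fs H0L, k c = c) : k = 1 := by
  obtain ⟨hk1, hk2⟩ := hk
  have hline : ∀ l ∈ D21, 2 ≤ pop (Nat.land l H0L) → k • fs l = fs l := by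
    intro l hl h2
    have hkl : k • fs l ∈ setOf D21 := by
      rw [← hk2]
      exact Set.smul_mem_smul_set ⟨l, hl, rfl⟩
    apply St_D21.eq_of_inter hkl ⟨l, hl, rfl⟩
    have hs : fs (Nat.land l H0L) ⊆ k • fs l ∩ fs l := by
      intro q hq
      have h3 : fs (Nat.land l H0L) = fs l ∩ fs H0L := fs_land _ _
      rw [h3] at hq
      obtain ⟨h4, h5⟩ := Finset.mem_inter.mp hq
      refine Finset.mem_inter.mpr ⟨Finset.mem_smul_finset.mpr ⟨q, h4, hfix q h5⟩, h4⟩
    have := Finset.card_le_card hs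
    rw [card_fs] at this
    omega
  ext1 q
  by_cases hq : idx q < 21
  · have h1 := List.all_eq_true.mp off_H0 (idx q) (List.mem_range.mpr hq)
    simp only [Bool.or_eq_true, List.any_eq_true, Bool.and_eq_true, Nat.ble_eq, Nat.beq_eq] at h1
    rcases h1 with h1 | ⟨l1, hl1, l2, hl2, ⟨h2, h3⟩, h4⟩
    · exact hfix q (mem_fs.mpr h1)
    · have hq1 : q ∈ fs (Nat.land l1 l2) := by
        rw [h4, mem_fs]
        simp
      have h5 : fs (Nat.land l1 l2) = fs l1 ∩ fs l2 := fs_land _ _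
      rw [h5] at hq1
      obtain ⟨h6, h7⟩ := Finset.mem_inter.mp hq1
      have h8 : k q ∈ fs l1 := by
        rw [← hline l1 hl1 h2]
        exact Finset.mem_smul_finset.mpr ⟨q, h6, rfl⟩
      have h9 : k q ∈ fs l2 := by
        rw [← hline l2 hl2 h3]
        exact Finset.mem_smul_finset.mpr ⟨q, h7, rfl⟩
      have h10 : k q ∈ fs (Nat.land l1 l2) := by
        rw [h5]
        exact Finset.mem_inter.mpr ⟨h8, h9⟩
      rw [h4, mem_fs, Nat.testBit_two_pow] at h10
      have h11 : idx q = idx (k q) := by simpa using h10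
      exact (idx_inj h11).symm
  · exact hk1 q (by omega)

theorem fix_H {h : ℕ} (hh : h ∈ I6L) {k : Equiv.Perm GolayPt} (hk : k ∈ autHi 21 (setOf D21))
    (hfix : ∀ c ∈ fs h, k c = c) : k = 1 := by
  obtain ⟨ρ, hρ, he⟩ := exists_rep hh
  have h1 : ρ⁻¹ * k * ρ = 1 := by
    apply fix_H0 (mul_mem (mul_mem (inv_mem hρ) hk) hρ)
    intro c hc
    have h2 : ρ c ∈ fs h := by
      rw [← he]
      exact Finset.mem_smul_finset.mpr ⟨c, hc, rfl⟩
    show ρ⁻¹ (k (ρ c)) = c
    rw [hfix _ h2]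
    simp
  have h2 : k = ρ * (ρ⁻¹ * k * ρ) * ρ⁻¹ := by group
  rw [h2, h1]
  group

/-- The statement on restrictions, for a general plane. -/
theorem restrict_unique (f : α ≃ ↥(Pn 21)) (hf : ∀ b : Finset α, b ∈ L ↔ b.map (embP f) ∈ setOf D21)
    (H : Finset α) (hH : H.card = 6 ∧ ∀ l ∈ L, (l ∩ H).card ≤ 2) (σ : Equiv.Perm ↥H) :
    ∃! g : Equiv.Perm α, g ∈ setSystemAut L ∧ ∀ p : ↥H, g p = σ p := by
  have hX : ∀ x ∈ setOf D21, x ⊆ Pn 21 := fun x hx => (St_D21.blocks x hx).2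
  have hI : codeF f H ∈ I6L := by
    have := (mem_filter_iff f hf 6 H).mp hH
    rwa [I6_eq] at this
  have hfs : ∀ a : α, a ∈ H ↔ embP f a ∈ fs (codeF f H) := by
    intro a
    rw [fs_codeF]
    constructor
    · intro ha
      exact Finset.mem_map_of_mem _ ha
    · intro ha
      obtain ⟨a', ha', he⟩ := Finset.mem_map.mp ha
      rw [← (embP f).injective he]
      exact ha'
  have hswap : ∀ x y : α, x ∈ H → y ∈ H → x ≠ y → ∃ g ∈ setSystemAut L, g x = y ∧ g y = x ∧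
      ∀ c ∈ H, c ≠ x → c ≠ y → g c = c := by
    intro x y hx hy hxy
    obtain ⟨k, hk, h1, h2, h3⟩ := swap_H hI ((hfs x).mp hx) ((hfs y).mp hy) (fun he => hxy ((embP f).injective he))
    rw [← map_extH f hf hX] at hk
    obtain ⟨g, hg, rfl⟩ := Subgroup.mem_map.mp hk
    refine ⟨g, hg, ?_, ?_, ?_⟩
    · rw [extH_embP] at h1
      exact (embP f).injective h1
    · rw [extH_embP] at h2
      exact (embP f).injective h2
    · intro c hc hcx hcy
      have := h3 _ ((hfs c).mp hc) (fun he => hcx ((embP f).injective he)) (fun he => hcy ((embP f).injective he))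
      rw [extH_embP] at this
      exact (embP f).injective this
  have hex : ∀ τ : Equiv.Perm ↥H, ∃ g ∈ setSystemAut L, ∀ p : ↥H, g p = τ p := by
    intro τ
    induction τ using Equiv.Perm.swap_induction_on with
    | one => exact ⟨1, one_mem _, fun p => rfl⟩
    | swap_mul τ x y hxy ih =>
      obtain ⟨g, hg, hgτ⟩ := ih
      obtain ⟨s, hs, h1, h2, h3⟩ := hswap x y x.2 y.2 (fun he => hxy (Subtype.ext he))
      refine ⟨s * g, mul_mem hs hg, fun p => ?_⟩
      rw [Equiv.Perm.mul_apply, hgτ, Equiv.Perm.mul_apply]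
      by_cases hx : τ p = x
      · rw [hx, Equiv.swap_apply_left, h1]
      · by_cases hy : τ p = y
        · rw [hy, Equiv.swap_apply_right, h2]
        · rw [Equiv.swap_apply_of_ne_of_ne hx hy, h3 _ (τ p).2 (fun he => hx (Subtype.ext he)) (fun he => hy (Subtype.ext he))]
  obtain ⟨g, hg, hgσ⟩ := hex σ
  refine ⟨g, ⟨hg, hgσ⟩, ?_⟩
  rintro g' ⟨hg', hgσ'⟩
  have h1 : g⁻¹ * g' = 1 := by
    apply extH_inj f
    rw [map_one]
    apply fix_H hI
    · rw [← map_extH f hf hX]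
      exact Subgroup.mem_map_of_mem _ (mul_mem (inv_mem hg) hg')
    · intro c hc
      have hcP : c ∈ Pn 21 := fs_sub_Pn (n := 21) (by norm_num) (codeF_lt f H) hc
      have h3 : c = embP f (f.symm ⟨c, hcP⟩) := by simp [embP_apply]
      rw [h3, extH_embP]
      congr 1
      have h4 : f.symm ⟨c, hcP⟩ ∈ H := by
        rw [hfs, ← h3]
        exact hc
      have h5 := hgσ ⟨_, h4⟩
      have h6 := hgσ' ⟨_, h4⟩
      simp only at h5 h6
      rw [Equiv.Perm.mul_apply, h6, ← h5]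
      simp
  have h2 : g' = g * (g⁻¹ * g') := by group
  rw [h2, h1, mul_one]

end CfsgLib.StCert.W24
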